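import Cfsg.Agent.Spec53.O73.Group

/-!
Numbers of fixed vectors with given form value, an invariant of conjugacy in the isometry group.
-/

set_option autoImplicit false

namespace CfsgLib.Spec53.O73

open Matrix

/-- The form on row vectors. -/
def qd (v : Fin 7 → ZMod 3) : ZMod 3 := v ⬝ᵥ (gram *ᵥ v)

/-- The number of fixed row vectors of value `a`. -/
noncomputable def fixCount (x : M7) (a : ZMod 3) : ℕ :=
  Nat.card {v : Fin 7 → ZMod 3 // v ᵥ* x = v ∧ qd v = a}

theorem toM_inv_mul (g : O7) : toM (g⁻¹ : GL J (ZMod 3)) * toM (g : GL J (ZMod 3)) = 1 := by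
  rw [← map_mul, inv_mul_cancel, map_one]

theorem qd_vecMul (g : O7) (v : Fin 7 → ZMod 3) : qd (v ᵥ* toM (g : GL J (ZMod 3))) = qd v := by
  have hg := (mem_O7_iff _).1 g.2
  set M := toM (g : GL J (ZMod 3))
  have h1 : (gram * Mᵀ * gram) * M = 1 := by
    calc (gram * Mᵀ * gram) * M = gram * (Mᵀ * gram * M) := by simp only [mul_assoc]
      _ = 1 := by rw [hg, gram_sq]
  have h2 : M * gram * Mᵀ = gram := by
    have h3 := mul_eq_one_comm.1 h1
    calc M * gram * Mᵀ = M * gram * Mᵀ * (gram * gram) := by rw [gram_sq, mul_one]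
      _ = (M * (gram * Mᵀ * gram)) * gram := by simp only [mul_assoc]
      _ = gram := by rw [h3, one_mul]
  rw [qd, qd, ← Matrix.dotProduct_mulVec, ← Matrix.mulVec_transpose,
    Matrix.mulVec_mulVec, Matrix.mulVec_mulVec, h2]

theorem fixCount_conj (g : O7) {x y : M7}
    (h : toM (g : GL J (ZMod 3)) * x = y * toM (g : GL J (ZMod 3))) (a : ZMod 3) :
    fixCount x a = fixCount y a := by
  set M := toM (g : GL J (ZMod 3))
  set N := toM (g⁻¹ : GL J (ZMod 3))
  have hNM : N * M = 1 := toM_inv_mul g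
  have hMN : M * N = 1 := mul_eq_one_comm.1 hNM
  refine Nat.card_congr
    { toFun := fun v => ⟨v.1 ᵥ* N, ?_, ?_⟩
      invFun := fun v => ⟨v.1 ᵥ* M, ?_, ?_⟩
      left_inv := fun v => Subtype.ext (by
        show v.1 ᵥ* N ᵥ* M = v.1
        rw [Matrix.vecMul_vecMul, hNM, Matrix.vecMul_one])
      right_inv := fun v => Subtype.ext (by
        show v.1 ᵥ* M ᵥ* N = v.1
        rw [Matrix.vecMul_vecMul, hMN, Matrix.vecMul_one]) }
  · rw [Matrix.vecMul_vecMul, show N * y = x * N by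
      calc N * y = N * (y * M) * N := by rw [mul_assoc, mul_assoc, hMN, mul_one]
        _ = x * N := by rw [← h, ← mul_assoc, hNM, one_mul],
      ← Matrix.vecMul_vecMul, v.2.1]
  · exact (qd_vecMul g⁻¹ v.1).trans v.2.2
  · rw [Matrix.vecMul_vecMul, h, ← Matrix.vecMul_vecMul, v.2.1]
  · exact (qd_vecMul g v.1).trans v.2.2

theorem pack7_congr {f g : ℕ → ℕ} (h : ∀ j, j < 7 → f j = g j) : pack7 f = pack7 g := by
  unfold pack7
  rw [h 0 (by omega), h 1 (by omega), h 2 (by omega), h 3 (by omega), h 4 (by omega), h 5 (by omega),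
    h 6 (by omega)]

theorem card_fin_eq_filter_length (N : ℕ) (p : ℕ → Bool) :
    Nat.card {n : Fin N // p n = true} = ((List.range N).filter p).length := by
  rw [Nat.card_eq_fintype_card, Fintype.card_subtype,
    ← List.toFinset_card_of_nodup (List.nodup_range.filter _), ← Finset.card_map Fin.valEmbedding]
  congr 1
  ext x
  simp only [Finset.mem_map, Finset.mem_filter, Finset.mem_univ, true_and, List.mem_toFinset,
    List.mem_filter, List.mem_range, Fin.valEmbedding_apply]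
  exact ⟨fun ⟨n, h, hn⟩ => hn ▸ ⟨n.2, h⟩, fun ⟨h1, h2⟩ => ⟨⟨x, h1⟩, h2, rfl⟩⟩

/-- The packed vector of an index. -/
def vecP (n : ℕ) : ℕ := pack7 fun j => n / 3 ^ j % 3

/-- The count, by computation. -/
def cntP (M : PMat) (a : ℕ) : ℕ :=
  ((List.range 2187).filter fun n =>
    decide (pack7 (fun j => lane (rowMul (vecP n) M) j % 3) = vecP n) &&
      decide (((n / 3 ^ 3 % 3) * (n / 3 ^ 3 % 3) + (n / 3 ^ 0 % 3) * (n / 3 ^ 4 % 3) +
        (n / 3 ^ 1 % 3) * (n / 3 ^ 5 % 3) + (n / 3 ^ 2 % 3) * (n / 3 ^ 6 % 3)) % 3 = a)).length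

/-- The vector of an index. -/
def vecV (n : Fin 2187) : Fin 7 → ZMod 3 := fun j => (((n : ℕ) / 3 ^ (j : ℕ) % 3 : ℕ) : ZMod 3)

theorem vecV_bijective : Function.Bijective vecV := by
  refine (Fintype.bijective_iff_injective_and_card _).2 ⟨fun a b h => ?_, by simp⟩
  have hj : ∀ j, j < 7 → (a : ℕ) / 3 ^ j % 3 = (b : ℕ) / 3 ^ j % 3 := fun j hj => by
    have h1 := (ZMod.natCast_eq_natCast_iff' _ _ 3).1 (congrFun h ⟨j, hj⟩)
    simpa [Nat.mod_mod] using h1
  have h0 := hj 0 (by omega); have h1 := hj 1 (by omega); have h2 := hj 2 (by omega)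
  have h3 := hj 3 (by omega); have h4 := hj 4 (by omega); have h5 := hj 5 (by omega)
  have h6 := hj 6 (by omega)
  have := a.2; have := b.2
  refine Fin.ext ?_
  norm_num at h0 h1 h2 h3 h4 h5 h6
  omega

theorem fixCount_eq_cntP {M : PMat} (hM : okMat M = true) {a : ℕ} (ha : a < 3) :
    fixCount (dec M) (a : ZMod 3) = cntP M a := by
  let e := Equiv.ofBijective vecV vecV_bijective
  rw [fixCount, ← Nat.card_congr (e.subtypeEquiv (p := fun n =>
    vecV n ᵥ* dec M = vecV n ∧ qd (vecV n) = (a : ZMod 3)) fun _ => Iff.rfl)]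
  have hd : ∀ n j : ℕ, n / 3 ^ j % 3 < 256 := fun n j => (Nat.mod_lt _ (by omega : 3 > 0)).trans (by omega)
  have hok : ∀ n, okRow (vecP n) = true := by
    intro n
    have h := okMat_norm (M := List.replicate 7 (vecP n)) (List.length_replicate ..)
    simp only [okMat, norm, Bool.and_eq_true, List.all_eq_true, List.mem_map] at h
    have h1 := h.2 _ ⟨vecP n, List.mem_replicate.2 ⟨by omega, rfl⟩, rfl⟩
    rwa [show (pack7 fun j => lane (vecP n) j % 3) = vecP n from pack7_congr fun j hj => by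
      simp only [vecP, lane_pack7 (fun k _ => hd n k) hj, Nat.mod_mod]] at h1
  have hv : ∀ n : Fin 2187, (fun k : Fin 7 => ((lane (vecP n) (k : ℕ) : ℕ) : ZMod 3)) = vecV n :=
    fun n => funext fun k => by rw [vecP, lane_pack7 (fun j _ => hd n j) k.2]; rfl
  have hq : ∀ n : Fin 2187, qd (vecV n) =
      (((((n : ℕ) / 3 ^ 3 % 3) * ((n : ℕ) / 3 ^ 3 % 3) + ((n : ℕ) / 3 ^ 0 % 3) * ((n : ℕ) / 3 ^ 4 % 3) +
        ((n : ℕ) / 3 ^ 1 % 3) * ((n : ℕ) / 3 ^ 5 % 3) + ((n : ℕ) / 3 ^ 2 % 3) * ((n : ℕ) / 3 ^ 6 % 3)) % 3 : ℕ) : ZMod 3) :=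
    fun n => by
      have h := q_eq (vecV n ∘ e7)
      rw [Function.comp_assoc, Equiv.self_comp_symm, Function.comp_id] at h
      rw [qd, ← h, ZMod.natCast_mod]
      simp only [Nat.cast_add, Nat.cast_mul]
      simp [Q0, Cfsg.quadFormOdd, Fin.sum_univ_three, e7, vecV, pow_two]
      ring
  have hiff : ∀ n : Fin 2187, (vecV n ᵥ* dec M = vecV n ∧ qd (vecV n) = (a : ZMod 3)) ↔
      (decide (pack7 (fun j => lane (rowMul (vecP n) M) j % 3) = vecP n) &&
      decide ((((n : ℕ) / 3 ^ 3 % 3) * ((n : ℕ) / 3 ^ 3 % 3) + ((n : ℕ) / 3 ^ 0 % 3) * ((n : ℕ) / 3 ^ 4 % 3) +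
        ((n : ℕ) / 3 ^ 1 % 3) * ((n : ℕ) / 3 ^ 5 % 3) + ((n : ℕ) / 3 ^ 2 % 3) * ((n : ℕ) / 3 ^ 6 % 3)) % 3 = a)) = true := by
    intro n
    obtain ⟨k1, v1⟩ := rowStep_spec (hok n) hM
    rw [hv] at v1
    rw [Bool.and_eq_true, decide_eq_true_eq, decide_eq_true_eq, hq]
    constructor
    · rintro ⟨h1, h2⟩
      refine ⟨?_, ?_⟩
      · rw [← v1, ← hv] at h1
        have hl : ∀ j, j < 7 → lane (pack7 fun j => lane (rowMul (vecP n) M) j % 3) j = lane (vecP n) j :=
          fun j hj => by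
            have h3 : lane (pack7 fun j => lane (rowMul (vecP n) M) j % 3) j % 3 =
                lane (vecP n) j % 3 := (ZMod.natCast_eq_natCast_iff' _ _ 3).1 (congrFun h1 ⟨j, hj⟩)
            have a1 := (okRow_spec k1).2 j hj
            have a2 := (okRow_spec (hok n)).2 j hj
            rwa [Nat.mod_eq_of_lt (by omega), Nat.mod_eq_of_lt (by omega)] at h3
        exact (pack7_lane (okRow_spec k1).1).symm.trans
          ((pack7_congr hl).trans (pack7_lane (okRow_spec (hok n)).1))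
      · have h3 := (ZMod.natCast_eq_natCast_iff' _ _ 3).1 h2
        rwa [Nat.mod_mod, Nat.mod_eq_of_lt ha] at h3
    · rintro ⟨h1, h2⟩
      exact ⟨by rw [← v1, h1, hv], by rw [h2]⟩
  rw [Nat.card_congr (Equiv.subtypeEquivRight hiff)]
  exact card_fin_eq_filter_length 2187 (fun n =>
    decide (pack7 (fun j => lane (rowMul (vecP n) M) j % 3) = vecP n) &&
      decide (((n / 3 ^ 3 % 3) * (n / 3 ^ 3 % 3) + (n / 3 ^ 0 % 3) * (n / 3 ^ 4 % 3) +
        (n / 3 ^ 1 % 3) * (n / 3 ^ 5 % 3) + (n / 3 ^ 2 % 3) * (n / 3 ^ 6 % 3)) % 3 = a))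

end CfsgLib.Spec53.O73
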