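import Cfsg.Agent.Spec53.O73.Split
import Cfsg.Agent.Spec53.O73.Invariant

/-!
`Omega7(3)` has exactly seven classes of subgroups of order three.
-/

set_option autoImplicit false

namespace CfsgLib.Spec53.O73

open Matrix CfsgLib.Classical.Orth

/-- The representative of index `L`. -/
def repC (L : ℕ) : ℕ := repIdx.getD L 0

/-- The representative. -/
def repX (L : Fin 7) : Om := wordG (repC L)

/-- The indices of the squares of the representatives. -/
def sqIdx : List ℕ := [1944, 1215, 2, 18, 489, 62, 9955]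

theorem rep_facts : ∀ L : Fin 7, repC L < 19683 ∧ repC L ≠ 0 ∧ eLab (repC L) = L ∧
    sqIdx.getD L 0 < 19683 ∧ sqIdx.getD L 0 ≠ 0 ∧ eLab (sqIdx.getD L 0) = L := by
  decide +kernel

theorem rep_cube : ∀ L : Fin 7, wordM (repC L) ^ 3 = 1 ∧
    wordM (repC L) * wordM (repC L) = wordM (sqIdx.getD L 0) ∧ wordM (repC L) ≠ 1 := by
  decide +kernel


theorem eLab_ne_seven {c : ℕ} (hc : c < 19683) (h0 : c ≠ 0) (h3 : wordM c ^ 3 = 1) : eLab c ≠ 7 := by
  intro h7
  have h := checkAt_ok hc
  unfold checkAt at h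
  rw [if_pos h7] at h
  split_ifs at h with h15
  · exact h0 (of_decide_eq_true h)
  · simp only [Bool.and_eq_true, decide_eq_true_eq] at h
    exact h.2 (cubeRow_spec (okMat_loP c) (okMat_hiP hc) ⟨eGen c, h.1⟩ h3)

/-- Every element of order three of the Sylow subgroup is conjugate to the representative with
its label. -/
theorem isConj_rep : ∀ (n : ℕ) {c : ℕ} (hc : c < 19683), eDist c ≤ n → c ≠ 0 →
    wordM c ^ 3 = 1 → ∃ hL : eLab c < 7, IsConj (wordG c) (repX ⟨eLab c, hL⟩) := by
  intro n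
  induction n using Nat.strong_induction_on with
  | _ n ih =>
    intro c hc hn hc0 h3
    have h7 := eLab_ne_seven hc hc0 h3
    have hL : eLab c < 7 := by
      have : eLab c < 8 := Nat.mod_lt _ (by omega)
      omega
    refine ⟨hL, ?_⟩
    have h := checkAt_ok hc
    unfold checkAt at h
    rw [if_neg h7] at h
    split_ifs at h with hd
    · have h' := of_decide_eq_true h
      have hlen : eLab c < repIdx.length := hL
      rw [List.getD_eq_getElem (hn := hlen)] at h'
      have hr : repC (eLab c) = c := by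
        rw [repC, List.getD_eq_getElem (hn := hlen), h']
      rw [repX, hr]
    · simp only [Bool.and_eq_true, decide_eq_true_eq] at h
      obtain ⟨⟨⟨⟨hg, hp⟩, hl⟩, hlt⟩, heq⟩ := h
      have hgok := tables_spec.2.1 (eGen c)
      have e := eqProd_spec (okMat_mulP hgok) (okMat_hiP hc) (okMat_loP _)
        (okMat_mulP (okMat_hiP hp)) heq
      rw [dec_mulP hgok (okMat_loP c), dec_mulP (okMat_hiP hp) hgok, mul_assoc] at e
      have hconj : IsConj (wordG c) (wordG (ePar c)) := by
        refine isConj_iff.2 ⟨gOm ⟨eGen c, hg⟩, ?_⟩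
        rw [mul_inv_eq_iff_eq_mul]
        refine omToM_injective ?_
        rw [map_mul, map_mul, omToM_gOm, omToM_wordG hc, omToM_wordG hp, wordM, wordM, e, mul_assoc]
      obtain ⟨w, hw⟩ := isConj_iff.1 hconj
      have hp3 : wordM (ePar c) ^ 3 = 1 := by
        rw [← omToM_wordG hp, ← map_pow, ← hw, conj_pow]
        have : wordG c ^ 3 = 1 := omToM_injective (by rw [map_pow, omToM_wordG hc, h3, map_one])
        rw [this, mul_one, mul_inv_cancel, map_one]
      have hp0 : ePar c ≠ 0 := by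
        intro h0
        refine h7 ?_
        rw [← hl, h0]
        decide +kernel
      obtain ⟨hL', hpc⟩ := ih (eDist (ePar c)) (by omega) hp le_rfl hp0 hp3
      have hfin : (⟨eLab (ePar c), hL'⟩ : Fin 7) = ⟨eLab c, hL⟩ := Fin.ext hl
      rw [hfin] at hpc
      exact hconj.trans hpc

theorem repX_cube (L : Fin 7) : repX L ^ 3 = 1 := omToM_injective (by
  rw [map_pow, repX, omToM_wordG (rep_facts L).1, (rep_cube L).1, map_one])

theorem repX_ne_one (L : Fin 7) : repX L ≠ 1 := fun h => (rep_cube L).2.2 (by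
  rw [← omToM_wordG (rep_facts L).1]
  show omToM (repX L) = 1
  rw [h, map_one])

theorem repX_orderOf (L : Fin 7) : orderOf (repX L) = 3 := by
  haveI : Fact (Nat.Prime 3) := ⟨Nat.prime_three⟩
  exact orderOf_eq_prime (repX_cube L) (repX_ne_one L)

theorem repX_inv_conj (L : Fin 7) : IsConj (repX L)⁻¹ (repX L) := by
  obtain ⟨h1, -, -, h4, h5, h6⟩ := rep_facts L
  have he : wordG (sqIdx.getD L 0) = (repX L)⁻¹ := by
    refine eq_inv_of_mul_eq_one_left (omToM_injective ?_)
    rw [map_mul, map_one, omToM_wordG h4, repX, omToM_wordG h1, ← (rep_cube L).2.1, ← pow_two,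
      ← pow_succ, (rep_cube L).1]
  have h3 : wordM (sqIdx.getD L 0) ^ 3 = 1 := by
    rw [← omToM_wordG h4, ← map_pow, he, inv_pow, repX_cube, inv_one, map_one]
  obtain ⟨hL, hc⟩ := isConj_rep _ h4 le_rfl h5 h3
  rw [he] at hc
  have hfin : (⟨eLab (sqIdx.getD L 0), hL⟩ : Fin 7) = L := Fin.ext h6
  rw [hfin] at hc
  exact hc

/-- Every element of order three is conjugate to a representative. -/
theorem exists_conj_rep (x : Om) (hx : orderOf x = 3) : ∃ L, IsConj x (repX L) := by
  have : Fact (Nat.Prime 3) := ⟨Nat.prime_three⟩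
  have hP : IsPGroup 3 (Subgroup.zpowers x) :=
    IsPGroup.of_card (n := 1) (by rw [Nat.card_zpowers, hx, pow_one])
  obtain ⟨S, hS⟩ := hP.exists_le_sylow
  obtain ⟨g, hg⟩ := MulAction.exists_smul_eq Om S sylU
  have hmem : g * x * g⁻¹ ∈ (sylU : Subgroup Om) := by
    rw [← hg, Sylow.coe_subgroup_smul]
    exact ⟨x, hS (Subgroup.mem_zpowers x), rfl⟩
  obtain ⟨c, hc, he⟩ := exists_index_of_mem_U (show g * x * g⁻¹ ∈ K 0 from hmem)
  have hx3 : (g * x * g⁻¹) ^ 3 = 1 := by
    rw [conj_pow, show x ^ 3 = 1 by have h := pow_orderOf_eq_one x; rwa [hx] at h, mul_one, mul_inv_cancel]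
  have h3 : wordM c ^ 3 = 1 := by rw [← omToM_wordG hc, ← map_pow, ← he, hx3, map_one]
  have h0 : c ≠ 0 := by
    rintro rfl
    rw [show wordG 0 = 1 from wG_zero 0 9, mul_inv_eq_one, mul_eq_left] at he
    rw [he, orderOf_one] at hx
    omega
  obtain ⟨hL, hconj⟩ := isConj_rep _ hc le_rfl h0 h3
  exact ⟨⟨eLab c, hL⟩, (isConj_iff.2 ⟨g, he⟩ : IsConj x (wordG c)).trans hconj⟩

/-- The expected numbers of fixed vectors with values `0, 1, 2`. -/
def fixTable : List (List ℕ) :=
  [[27, 0, 0], [27, 0, 0], [81, 108, 54], [99, 72, 72], [63, 90, 90], [9, 18, 0], [9, 0, 18]]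

theorem cnt_facts : ∀ L : Fin 7, ∀ a : Fin 3,
    cntP (mulP (loP (repC L)) (hiP (repC L))) a = (fixTable.getD L []).getD a 0 := by
  decide +kernel

theorem fixCount_repX (L : Fin 7) (a : Fin 3) :
    fixCount (omToM (repX L)) ((a : ℕ) : ZMod 3) = (fixTable.getD L []).getD a 0 := by
  have hc := (rep_facts L).1
  rw [repX, omToM_wordG hc, wordM, ← dec_mulP (okMat_loP _) (okMat_hiP hc),
    fixCount_eq_cntP (okMat_mulP (okMat_loP _)) a.2]
  exact cnt_facts L a

theorem hO_conj : toM (hO : GL J (ZMod 3)) * wordM 972 = wordM 1701 * toM (hO : GL J (ZMod 3)) := by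
  rw [hO, toM_lev]
  decide +kernel

/-- The representatives are pairwise non-conjugate. -/
theorem repX_injective {L L' : Fin 7} (h : IsConj (repX L) (repX L')) : L = L' := by
  obtain ⟨g, hg⟩ := isConj_iff.1 h
  have hm : toM ((g : O7) : GL J (ZMod 3)) * omToM (repX L) =
      omToM (repX L') * toM ((g : O7) : GL J (ZMod 3)) := by
    have h1 := congrArg omToM (mul_inv_eq_iff_eq_mul.1 hg)
    rwa [map_mul, map_mul] at h1
  have hcount : ∀ a : Fin 3, (fixTable.getD L []).getD a 0 = (fixTable.getD L' []).getD a 0 :=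
    fun a => by rw [← fixCount_repX, ← fixCount_repX, fixCount_conj (g : O7) hm]
  have hsep : ∀ L L' : Fin 7, (∀ a : Fin 3,
      (fixTable.getD L []).getD a 0 = (fixTable.getD L' []).getD a 0) →
      L = L' ∨ (L = 0 ∧ L' = 1) ∨ (L = 1 ∧ L' = 0) := by decide +kernel
  have key : ¬ IsConj (repX 0) (repX 1) := by
    intro hc
    obtain ⟨k, hk⟩ := isConj_iff.1 hc
    have h1 := congrArg omToM (mul_inv_eq_iff_eq_mul.1 hk)
    rw [map_mul, map_mul, repX, repX, omToM_wordG (rep_facts 0).1, omToM_wordG (rep_facts 1).1] at h1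
    have hk' : toM ((k : O7) : GL J (ZMod 3)) * wordM 972 =
        wordM 1701 * toM ((k : O7) : GL J (ZMod 3)) := h1
    set z : O7 := hO * (k : O7)
    have hz : toM (z : GL J (ZMod 3)) * wordM 972 = wordM 972 * toM (z : GL J (ZMod 3)) := by
      have hsq : toM (hO : GL J (ZMod 3)) * toM (hO : GL J (ZMod 3)) = 1 := by
        rw [← map_mul, ← Subgroup.coe_mul, hO_sq, OneMemClass.coe_one, map_one]
      have h2 : toM (hO : GL J (ZMod 3)) * wordM 1701 = wordM 972 * toM (hO : GL J (ZMod 3)) := by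
        calc toM (hO : GL J (ZMod 3)) * wordM 1701
            = toM (hO : GL J (ZMod 3)) * (wordM 1701 * toM (hO : GL J (ZMod 3))) *
                toM (hO : GL J (ZMod 3)) := by simp only [mul_assoc, hsq, mul_one]
          _ = _ := by rw [← hO_conj]; simp only [← mul_assoc, hsq, one_mul]
      rw [show (z : GL J (ZMod 3)) = (hO : GL J (ZMod 3)) * ((k : O7) : GL J (ZMod 3)) from rfl,
        map_mul, mul_assoc, hk', ← mul_assoc, h2, mul_assoc]
    have hdet : ((z : GL J (ZMod 3)) : Matrix J J (ZMod 3)).det = 1 := by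
      show (((hO : GL J (ZMod 3)) : Matrix J J (ZMod 3)) * _).det = 1
      rw [Matrix.det_mul, hO_facts.2, det_of_mem_Om k.2, one_mul]
    have h3 := chi_eq_one_of_commute z hdet hz
    rw [map_mul, (mem_Om_iff _).1 k.2, mul_one] at h3
    exact hO_facts.1 h3
  rcases hsep L L' hcount with h' | ⟨rfl, rfl⟩ | ⟨rfl, rfl⟩
  · exact h'
  · exact absurd h key
  · exact absurd h.symm key

theorem map_conj_zpowers {G : Type*} [Group G] (g x : G) :
    (Subgroup.zpowers x).map (MulAut.conj g).toMonoidHom = Subgroup.zpowers (g * x * g⁻¹) :=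
  MonoidHom.map_zpowers _ _

/-- The classes of subgroups of order three of `POmega7(3)`. -/
theorem order_three_classes :
    ∃ Y : Fin 7 → Subgroup (Cfsg.POmega (ZMod 3) Q0), (∀ i, Nat.card (Y i) = 3) ∧
      (∀ i j, (∃ g : Cfsg.POmega (ZMod 3) Q0, (Y i).map (MulAut.conj g).toMonoidHom = Y j) → i = j) ∧
      (∀ X : Subgroup (Cfsg.POmega (ZMod 3) Q0), Nat.card X = 3 →
        ∃ i, ∃ g : Cfsg.POmega (ZMod 3) Q0, X.map (MulAut.conj g).toMonoidHom = Y i) := by
  haveI : Fact (Nat.Prime 3) := ⟨Nat.prime_three⟩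
  let π : Om →* Cfsg.POmega (ZMod 3) Q0 := QuotientGroup.mk' (Subgroup.center Om)
  have hπ : Function.Bijective π := by
    refine ⟨?_, QuotientGroup.mk'_surjective _⟩
    rw [← MonoidHom.ker_eq_bot_iff, QuotientGroup.ker_mk', center_Om]
  let e : Om ≃* Cfsg.POmega (ZMod 3) Q0 := MulEquiv.ofBijective π hπ
  refine ⟨fun L => Subgroup.zpowers (e (repX L)), fun L => ?_, fun i j => ?_, fun X hX => ?_⟩
  · rw [Nat.card_zpowers, MulEquiv.orderOf_eq e, repX_orderOf]
  · rintro ⟨g, hg⟩
    rw [map_conj_zpowers] at hg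
    obtain ⟨g', rfl⟩ := e.surjective g
    rw [← map_mul, ← map_inv, ← map_mul] at hg
    have hmem : e (g' * repX i * g'⁻¹) ∈ Subgroup.zpowers (e (repX j)) :=
      (le_of_eq hg) (Subgroup.mem_zpowers _)
    rw [show Subgroup.zpowers (e (repX j)) = (Subgroup.zpowers (repX j)).map e.toMonoidHom from
      (MonoidHom.map_zpowers e.toMonoidHom (repX j)).symm] at hmem
    obtain ⟨y, hy, hye⟩ := hmem
    have hy' : g' * repX i * g'⁻¹ = y := (e.injective hye).symm
    obtain ⟨k, hk⟩ := Subgroup.mem_zpowers_iff.1 hy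
    rw [← zpow_mod_orderOf, repX_orderOf] at hk
    have hk3 : k % (3 : ℤ) = 0 ∨ k % (3 : ℤ) = 1 ∨ k % (3 : ℤ) = 2 := by omega
    rw [Nat.cast_ofNat] at hk
    rcases hk3 with h | h | h <;> rw [h] at hk
    · exfalso
      rw [zpow_zero] at hk
      rw [← hk, mul_inv_eq_one, mul_eq_left] at hy'
      exact repX_ne_one i hy'
    · rw [zpow_one] at hk
      exact repX_injective (isConj_iff.2 ⟨g', hy'.trans hk.symm⟩)
    · rw [show (repX j) ^ (2 : ℤ) = (repX j)⁻¹ from eq_inv_of_mul_eq_one_left (by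
        rw [zpow_two, ← pow_two, ← pow_succ, repX_cube])] at hk
      exact repX_injective ((isConj_iff.2 ⟨g', hy'.trans hk.symm⟩).trans (repX_inv_conj j))
  · haveI : Finite X := Nat.finite_of_card_ne_zero (by omega)
    obtain ⟨x, hx⟩ := exists_prime_orderOf_dvd_card' 3 (dvd_of_eq hX.symm)
    have hXeq : X = Subgroup.zpowers (x : Cfsg.POmega (ZMod 3) Q0) := by
      refine (Subgroup.eq_of_le_of_card_ge ((Subgroup.zpowers_le).2 x.2) ?_).symm
      rw [Nat.card_zpowers, Subgroup.orderOf_coe, hx, hX]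
    obtain ⟨x', hx'⟩ := e.surjective (x : Cfsg.POmega (ZMod 3) Q0)
    have hord : orderOf x' = 3 := by
      rw [← MulEquiv.orderOf_eq e, hx', Subgroup.orderOf_coe, hx]
    obtain ⟨L, hL⟩ := exists_conj_rep x' hord
    obtain ⟨g, hg⟩ := isConj_iff.1 hL
    refine ⟨L, e g, ?_⟩
    show X.map (MulAut.conj (e g)).toMonoidHom = Subgroup.zpowers (e (repX L))
    rw [hXeq, map_conj_zpowers, ← hx', ← map_mul, ← map_inv, ← map_mul, hg]

end CfsgLib.Spec53.O73
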