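import Cfsg.Agent.Spec53.O73.Data

/-!
Kernel checks of the certificate for the elements of order three of a Sylow three-subgroup of
`Omega7(3)`, and what they mean for matrices.
-/

set_option autoImplicit false

namespace CfsgLib.Spec53.O73

/-- The base-three digit. -/
def digit (c k : ℕ) : ℕ := c / 3 ^ k % 3

/-- The positive root element. -/
def rM (k : ℕ) : PMat := rootM.getD k oneP

/-- The generator. -/
def gM (k : ℕ) : PMat := genM.getD k oneP

/-- The inverse generator. -/
def gI (k : ℕ) : PMat := genInvM.getD k oneP

/-- The word of the root elements `i, i + 1, …, i + len - 1` with exponents the digits of `c`. -/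
def wordP (i : ℕ) : ℕ → ℕ → PMat
  | 0, _ => oneP
  | len + 1, c =>
    let R := wordP (i + 1) len (c / 3)
    if c % 3 = 0 then R else if c % 3 = 1 then mulP (rM i) R else mulP (rM i) (mulP (rM i) R)

/-- The first factor of the word of index `c`. -/
def loP (c : ℕ) : PMat := loTab.getD (c % 81) oneP

/-- The second factor of the word of index `c`. -/
def hiP (c : ℕ) : PMat := hiTab.getD (c / 81) oneP

/-- The certificate entry. -/
def ent (c : ℕ) : ℕ := (certChunks.getD (c / 500) 0) >>> (32 * (c % 500)) % 2 ^ 32

/-- The generator, or the witness row. -/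
def eGen (c : ℕ) : ℕ := ent c % 16

/-- The distance to the representative. -/
def eDist (c : ℕ) : ℕ := ent c / 2 ^ 4 % 64

/-- The class. -/
def eLab (c : ℕ) : ℕ := ent c / 2 ^ 10 % 8

/-- The next element. -/
def ePar (c : ℕ) : ℕ := ent c / 2 ^ 13

/-- The check of one entry. -/
def checkAt (c : ℕ) : Bool :=
  if eLab c = 7 then
    if eGen c = 15 then decide (c = 0)
    else decide (eGen c < 7) && decide (cubeRow (loP c) (hiP c) (eGen c) ≠ 256 ^ eGen c)
  else if eDist c = 0 then decide (repIdx.getD (eLab c) 19683 = c)
  else
    decide (eGen c < 8) && decide (ePar c < 19683) && decide (eLab (ePar c) = eLab c) &&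
      decide (eDist (ePar c) < eDist c) &&
      eqProd (mulP (gM (eGen c)) (loP c)) (hiP c) (loP (ePar c)) (mulP (hiP (ePar c)) (gM (eGen c)))

/-- The check of a range of entries. -/
def checkRange (s len : ℕ) : Bool := (List.range' s len).all checkAt

/-- Well-formedness of all the tables. -/
def checkTables : Bool :=
  rootM.all okMat && genM.all okMat && genInvM.all okMat &&
    decide (rootM.length = 9) && decide (genM.length = 8) && decide (genInvM.length = 8) &&
    decide (loTab = (List.range 81).map (wordP 0 4)) &&
    decide (hiTab = (List.range 243).map (wordP 4 5))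

/-- The conjugate of a later root element by an earlier one is a word in later ones. -/
def checkCommPair (t k j : ℕ) : Bool :=
  decide (commTab.getD t 1 < 3 ^ 9) && decide (commTab.getD t 1 % 3 ^ (k + 1) = 0) &&
    eqProd (rM k) (rM j) (mulP (loP (commTab.getD t 1)) (hiP (commTab.getD t 1))) (rM k)

/-- All pairs. -/
def checkComm : Bool :=
  ((List.range 9).flatMap fun k => (List.range (8 - k)).map fun d => (k, k + 1 + d)).zipIdx.all
    fun x => checkCommPair x.2 x.1.1 x.1.2

/-- The separating entry vanishes on all later words. -/
def checkSep (k : ℕ) : Bool :=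
  let p := sepPos.getD k (7, 7)
  decide (p.1 < 7) && decide (p.2 < 7) && decide (lane ((rM k).getD p.1 0) p.2 % 3 ≠ 0) &&
    (List.range (3 ^ (8 - k))).all fun d =>
      decide (lane (rowMul ((loP (d * 3 ^ (k + 1))).getD p.1 0) (hiP (d * 3 ^ (k + 1)))) p.2 % 3 = 0)

theorem tables_ok : checkTables = true := by decide +kernel

theorem comm_ok : checkComm = true := by decide +kernel

theorem sep_ok0 : checkSep 0 = true := by decide +kernel
theorem sep_ok1 : checkSep 1 = true := by decide +kernel
theorem sep_ok2 : checkSep 2 = true := by decide +kernel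
theorem sep_ok_rest : ((List.range' 3 6).all checkSep) = true := by decide +kernel

theorem sep_ok {k : ℕ} (hk : k < 9) : checkSep k = true := by
  rcases lt_or_ge k 3 with h | h
  · interval_cases k
    exacts [sep_ok0, sep_ok1, sep_ok2]
  · exact List.all_eq_true.1 sep_ok_rest k (List.mem_range'_1.2 (by omega))

end CfsgLib.Spec53.O73
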