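import Cfsg.Agent.Spec53.O73.Check

/-!
Kernel check of all certificate entries, and its meaning for matrices.
-/

set_option autoImplicit false

namespace CfsgLib.Spec53.O73

theorem range_ok0 : checkRange 0 1000 = true := by decide +kernel

theorem range_ok1 : checkRange 1000 1000 = true := by decide +kernel

theorem range_ok2 : checkRange 2000 1000 = true := by decide +kernel

theorem range_ok3 : checkRange 3000 1000 = true := by decide +kernel

theorem range_ok4 : checkRange 4000 1000 = true := by decide +kernel

theorem range_ok5 : checkRange 5000 1000 = true := by decide +kernel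

theorem range_ok6 : checkRange 6000 1000 = true := by decide +kernel

theorem range_ok7 : checkRange 7000 1000 = true := by decide +kernel

theorem range_ok8 : checkRange 8000 1000 = true := by decide +kernel

theorem range_ok9 : checkRange 9000 1000 = true := by decide +kernel

theorem range_ok10 : checkRange 10000 1000 = true := by decide +kernel

theorem range_ok11 : checkRange 11000 1000 = true := by decide +kernel

theorem range_ok12 : checkRange 12000 1000 = true := by decide +kernel

theorem range_ok13 : checkRange 13000 1000 = true := by decide +kernel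

theorem range_ok14 : checkRange 14000 1000 = true := by decide +kernel

theorem range_ok15 : checkRange 15000 1000 = true := by decide +kernel

theorem range_ok16 : checkRange 16000 1000 = true := by decide +kernel

theorem range_ok17 : checkRange 17000 1000 = true := by decide +kernel

theorem range_ok18 : checkRange 18000 1000 = true := by decide +kernel

theorem range_ok19 : checkRange 19000 683 = true := by decide +kernel

theorem checkAt_ok {c : ℕ} (hc : c < 19683) : checkAt c = true := by
  have h : ∀ s len, checkRange s len = true → s ≤ c → c < s + len → checkAt c = true :=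
    fun s len h h1 h2 => List.all_eq_true.1 h c (List.mem_range'_1.2 ⟨h1, h2⟩)
  rcases lt_or_ge c 1000 with h0 | h0
  · exact h _ _ range_ok0 (by omega) (by omega)
  rcases lt_or_ge c 2000 with h1 | h1
  · exact h _ _ range_ok1 (by omega) (by omega)
  rcases lt_or_ge c 3000 with h2 | h2
  · exact h _ _ range_ok2 (by omega) (by omega)
  rcases lt_or_ge c 4000 with h3 | h3
  · exact h _ _ range_ok3 (by omega) (by omega)
  rcases lt_or_ge c 5000 with h4 | h4
  · exact h _ _ range_ok4 (by omega) (by omega)
  rcases lt_or_ge c 6000 with h5 | h5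
  · exact h _ _ range_ok5 (by omega) (by omega)
  rcases lt_or_ge c 7000 with h6 | h6
  · exact h _ _ range_ok6 (by omega) (by omega)
  rcases lt_or_ge c 8000 with h7 | h7
  · exact h _ _ range_ok7 (by omega) (by omega)
  rcases lt_or_ge c 9000 with h8 | h8
  · exact h _ _ range_ok8 (by omega) (by omega)
  rcases lt_or_ge c 10000 with h9 | h9
  · exact h _ _ range_ok9 (by omega) (by omega)
  rcases lt_or_ge c 11000 with h10 | h10
  · exact h _ _ range_ok10 (by omega) (by omega)
  rcases lt_or_ge c 12000 with h11 | h11
  · exact h _ _ range_ok11 (by omega) (by omega)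
  rcases lt_or_ge c 13000 with h12 | h12
  · exact h _ _ range_ok12 (by omega) (by omega)
  rcases lt_or_ge c 14000 with h13 | h13
  · exact h _ _ range_ok13 (by omega) (by omega)
  rcases lt_or_ge c 15000 with h14 | h14
  · exact h _ _ range_ok14 (by omega) (by omega)
  rcases lt_or_ge c 16000 with h15 | h15
  · exact h _ _ range_ok15 (by omega) (by omega)
  rcases lt_or_ge c 17000 with h16 | h16
  · exact h _ _ range_ok16 (by omega) (by omega)
  rcases lt_or_ge c 18000 with h17 | h17
  · exact h _ _ range_ok17 (by omega) (by omega)
  rcases lt_or_ge c 19000 with h18 | h18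
  · exact h _ _ range_ok18 (by omega) (by omega)
  exact h _ _ range_ok19 (by omega) (by omega)

theorem tables_spec :
    (∀ k, okMat (rM k) = true) ∧ (∀ k, okMat (gM k) = true) ∧ (∀ k, okMat (gI k) = true) ∧
      loTab = (List.range 81).map (wordP 0 4) ∧ hiTab = (List.range 243).map (wordP 4 5) := by
  have h := tables_ok
  simp only [checkTables, Bool.and_eq_true, decide_eq_true_eq] at h
  obtain ⟨⟨⟨⟨⟨⟨⟨h1, h2⟩, h3⟩, -⟩, -⟩, -⟩, h4⟩, h5⟩ := h
  have key : ∀ (l : List PMat), l.all okMat = true → ∀ k, okMat (l.getD k oneP) = true := by
    intro l hl k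
    rcases lt_or_ge k l.length with hk | hk
    · rw [List.getD_eq_getElem (hn := hk)]
      exact List.all_eq_true.1 hl _ (List.getElem_mem hk)
    · rw [List.getD_eq_default _ _ hk]; exact okMat_oneP
  exact ⟨key _ h1, key _ h2, key _ h3, h4, h5⟩

theorem okMat_wordP (i len c : ℕ) : okMat (wordP i len c) = true := by
  induction len generalizing i c with
  | zero => exact okMat_oneP
  | succ len ih =>
    simp only [wordP]
    split_ifs
    · exact ih _ _
    · exact okMat_mulP (tables_spec.1 i)
    · exact okMat_mulP (tables_spec.1 i)

theorem loP_eq (c : ℕ) : loP c = wordP 0 4 (c % 81) := by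
  rw [loP, tables_spec.2.2.2.1, List.getD_eq_getElem (hn := by simp; omega), List.getElem_map,
    List.getElem_range]

theorem hiP_eq {c : ℕ} (hc : c < 19683) : hiP c = wordP 4 5 (c / 81) := by
  rw [hiP, tables_spec.2.2.2.2, List.getD_eq_getElem (hn := by simp; omega), List.getElem_map,
    List.getElem_range]

theorem okMat_loP (c : ℕ) : okMat (loP c) = true := loP_eq c ▸ okMat_wordP _ _ _

theorem okMat_hiP {c : ℕ} (hc : c < 19683) : okMat (hiP c) = true := hiP_eq hc ▸ okMat_wordP _ _ _

/-- The matrix of the word of index `c`. -/
def wordM (c : ℕ) : Matrix (Fin 7) (Fin 7) (ZMod 3) := dec (loP c) * dec (hiP c)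

/-- Reachability by the conjugations of the certificate. -/
inductive Reach (r : ℕ) : ℕ → Prop
  | base : Reach r r
  | step {c d g : ℕ} (hc : c < 19683) (hd : d < 19683) (hg : g < 8)
      (h : dec (gM g) * wordM c = wordM d * dec (gM g)) (hr : Reach r d) : Reach r c

/-- Every element of order three of the group of words reaches a representative. -/
theorem exists_reach : ∀ (n : ℕ) {c : ℕ}, c < 19683 → eDist c ≤ n →
    c ≠ 0 → wordM c ^ 3 = 1 → ∃ L, L < 7 ∧ Reach (repIdx.getD L 0) c := by
  intro n
  induction n using Nat.strong_induction_on with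
  | _ n ih =>
    intro c hc hn hc0 h3
    have h := checkAt_ok hc
    unfold checkAt at h
    split_ifs at h with h7 h15 hd
    · exact absurd (of_decide_eq_true h) hc0
    · simp only [Bool.and_eq_true, decide_eq_true_eq] at h
      exact absurd (cubeRow_spec (okMat_loP c) (okMat_hiP hc) ⟨eGen c, h.1⟩ h3) h.2
    · have h' := of_decide_eq_true h
      have hlt : eLab c < 8 := Nat.mod_lt _ (by omega)
      refine ⟨eLab c, by omega, ?_⟩
      have hr : repIdx.getD (eLab c) 0 = c := by
        have hlen : eLab c < repIdx.length := by
          show eLab c < 7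
          omega
        rw [List.getD_eq_getElem (hn := hlen)] at h' ⊢
        exact h'
      rw [hr]
      exact Reach.base
    · simp only [Bool.and_eq_true, decide_eq_true_eq] at h
      obtain ⟨⟨⟨⟨hg, hp⟩, hl⟩, hlt⟩, heq⟩ := h
      have hgok := tables_spec.2.1 (eGen c)
      have e := eqProd_spec (okMat_mulP hgok) (okMat_hiP hc) (okMat_loP _)
        (okMat_mulP (okMat_hiP hp)) heq
      rw [dec_mulP hgok (okMat_loP c), dec_mulP (okMat_hiP hp) hgok, mul_assoc] at e
      have e' : dec (gM (eGen c)) * wordM c = wordM (ePar c) * dec (gM (eGen c)) := by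
        rw [wordM, wordM, e, mul_assoc]
      have hp0 : ePar c ≠ 0 ∧ eLab (ePar c) ≠ 7 := by
        have hlab : eLab (ePar c) ≠ 7 := by rw [hl]; exact h7
        refine ⟨fun h0 => hlab ?_, hlab⟩
        rw [h0]
        decide +kernel
      have hp3 : wordM (ePar c) ^ 3 = 1 := by
        have hinv : dec (gM (eGen c)) * dec (gI (eGen c)) = 1 := by
          have : ∀ k : Fin 8, dec (gM k) * dec (gI k) = 1 := by decide +kernel
          exact this ⟨eGen c, hg⟩
        have hsc : SemiconjBy (dec (gM (eGen c))) (wordM c) (wordM (ePar c)) := e'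
        have h4 := (hsc.pow_right 3).eq
        rw [h3, mul_one] at h4
        calc wordM (ePar c) ^ 3 = wordM (ePar c) ^ 3 * (dec (gM (eGen c)) * dec (gI (eGen c))) := by
              rw [hinv, mul_one]
          _ = 1 := by rw [← mul_assoc, ← h4, hinv]
      obtain ⟨L, hL, hreach⟩ := ih (eDist (ePar c)) (by omega) hp le_rfl hp0.1 hp3
      exact ⟨L, hL, Reach.step hc hp hg e' hreach⟩

end CfsgLib.Spec53.O73
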