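import Cfsg.Agent.Spec53.O73.CheckAll
import Cfsg.Agent.OrthSmall.Five

/-!
The certified generators as elements of `Omega7(3)`.
-/

set_option autoImplicit false

namespace CfsgLib.Spec53.O73

open Matrix CfsgLib.Classical.Orth CfsgLib.OrthGeo

/-- The index type of the form. -/
abbrev J : Type := Unit ⊕ (Fin 3 ⊕ Fin 3)

/-- The form. -/
abbrev Q0 : (J → ZMod 3) → ZMod 3 := Cfsg.quadFormOdd 3 (ZMod 3)

/-- The isometry group. -/
abbrev O7 : Subgroup (GL J (ZMod 3)) := Cfsg.isometryGroup (ZMod 3) Q0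

/-- `Omega7(3)`. -/
abbrev Om : Subgroup O7 := Cfsg.Omega (ZMod 3) Q0

/-- The matrix ring on `Fin 7`. -/
abbrev M7 : Type := Matrix (Fin 7) (Fin 7) (ZMod 3)

/-- The order of the coordinates: `u`, `x₀`, `w`. -/
def e7 : J ≃ Fin 7 where
  toFun := fun x => match x with
    | .inl _ => 3
    | .inr (.inl i) => ⟨i.1, by omega⟩
    | .inr (.inr i) => ⟨i.1 + 4, by omega⟩
  invFun := ![.inr (.inl 0), .inr (.inl 1), .inr (.inl 2), .inl (), .inr (.inr 0), .inr (.inr 1),
    .inr (.inr 2)]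
  left_inv := by decide
  right_inv := by decide

/-- The Gram matrix. -/
def gram : M7 := dec [256 ^ 4 * 2, 256 ^ 5 * 2, 256 ^ 6 * 2, 256 ^ 3, 2, 256 * 2, 256 ^ 2 * 2]

theorem gram_sq : gram * gram = 1 := by decide +kernel

theorem q_eq (v : J → ZMod 3) : Q0 v = (v ∘ e7.symm) ⬝ᵥ (gram *ᵥ (v ∘ e7.symm)) := by
  have hg : ∀ x : Fin 7 → ZMod 3, x ⬝ᵥ (gram *ᵥ x) = x 3 ^ 2 + (x 0 * x 4 + x 1 * x 5 + x 2 * x 6) := by
    intro x
    have h0 : gram = Matrix.of fun i j : Fin 7 =>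
        if i = 3 ∧ j = 3 then (1 : ZMod 3)
        else if (j : ℕ) = i + 4 ∨ (i : ℕ) = j + 4 then 2 else 0 := by decide +kernel
    have h : ∀ i j : Fin 7, gram i j =
        if i = 3 ∧ j = 3 then 1
        else if (j : ℕ) = i + 4 ∨ (i : ℕ) = j + 4 then 2 else 0 := fun i j => by rw [h0]; rfl
    have h33 : (3 : ZMod 3) = 0 := by decide
    simp [dotProduct, Matrix.mulVec, h, Fin.sum_univ_seven]
    linear_combination (x 0 * x 4 + x 1 * x 5 + x 2 * x 6) * h33
  rw [hg]
  simp [Q0, Cfsg.quadFormOdd, Fin.sum_univ_three, e7]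

/-- The matrix on `Fin 7` of an element of `GL`. -/
def toM : GL J (ZMod 3) →* M7 :=
  (Matrix.reindexAlgEquiv (ZMod 3) (ZMod 3) e7).toMonoidHom.comp (Units.coeHom _)

theorem toM_injective : Function.Injective toM :=
  (Matrix.reindexAlgEquiv (ZMod 3) (ZMod 3) e7).injective.comp Units.val_injective

theorem toM_mulVec (g : GL J (ZMod 3)) (v : J → ZMod 3) :
    ((g : Matrix J J (ZMod 3)) *ᵥ v) ∘ e7.symm = toM g *ᵥ (v ∘ e7.symm) := by
  show _ = ((g : Matrix J J (ZMod 3)).submatrix e7.symm e7.symm) *ᵥ (v ∘ e7.symm)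
  rw [Matrix.submatrix_mulVec_equiv, Equiv.symm_symm, Function.comp_assoc, Equiv.symm_comp_self,
    Function.comp_id]

theorem mem_O7_iff (g : GL J (ZMod 3)) : g ∈ O7 ↔ (toM g)ᵀ * gram * toM g = gram := by
  have hq : ∀ v, Q0 ((g : Matrix J J (ZMod 3)) *ᵥ v) =
      (v ∘ e7.symm) ⬝ᵥ (((toM g)ᵀ * gram * toM g) *ᵥ (v ∘ e7.symm)) := fun v => by
    rw [q_eq, toM_mulVec, ← Matrix.mulVec_mulVec, ← Matrix.mulVec_mulVec,
      Matrix.dotProduct_mulVec _ (toM g)ᵀ, Matrix.vecMul_transpose]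
  rw [mem_isometryGroup]
  constructor
  · intro h
    have key : ∀ x : Fin 7 → ZMod 3,
        x ⬝ᵥ (((toM g)ᵀ * gram * toM g) *ᵥ x) = x ⬝ᵥ (gram *ᵥ x) := fun x => by
      have h1 := h (x ∘ e7)
      rw [hq, q_eq, Function.comp_assoc, Equiv.self_comp_symm, Function.comp_id] at h1
      exact h1
    set A := (toM g)ᵀ * gram * toM g
    have hs : Aᵀ = A := by
      have hgs : gramᵀ = gram := by decide +kernel
      simp [A, Matrix.transpose_mul, hgs, mul_assoc]
    have hgs : gramᵀ = gram := by decide +kernel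
    ext i j
    have e := key (Pi.single i 1 + Pi.single j 1)
    have ei := key (Pi.single i 1)
    have ej := key (Pi.single j 1)
    simp only [Matrix.mulVec_add, add_dotProduct, dotProduct_add, Matrix.mulVec_single_one,
      single_one_dotProduct, Matrix.col_apply] at e ei ej
    have a1 : A j i = A i j := congrFun (congrFun hs i) j
    have a2 : gram j i = gram i j := congrFun (congrFun hgs i) j
    rw [a1, a2] at e
    have h33 : (3 : ZMod 3) = 0 := by decide
    linear_combination -e + ei + ej + (A i j - gram i j) * h33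
  · intro h v
    rw [hq, h, ← q_eq]

/-- An element of the isometry group from a matrix on `Fin 7` and its inverse. -/
def mkO (M N : M7) (h1 : M * N = 1) (h2 : N * M = 1) (hM : Mᵀ * gram * M = gram) : O7 :=
  ⟨⟨(Matrix.reindexAlgEquiv (ZMod 3) (ZMod 3) e7).symm M,
    (Matrix.reindexAlgEquiv (ZMod 3) (ZMod 3) e7).symm N,
    by rw [← map_mul, h1, map_one], by rw [← map_mul, h2, map_one]⟩, by
    rw [mem_O7_iff]
    show ((Matrix.reindexAlgEquiv (ZMod 3) (ZMod 3) e7)
      ((Matrix.reindexAlgEquiv (ZMod 3) (ZMod 3) e7).symm M))ᵀ * gram *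
      (Matrix.reindexAlgEquiv (ZMod 3) (ZMod 3) e7)
        ((Matrix.reindexAlgEquiv (ZMod 3) (ZMod 3) e7).symm M) = gram
    rw [AlgEquiv.apply_symm_apply, hM]⟩

theorem toM_mkO (M N : M7) (h1 : M * N = 1) (h2 : N * M = 1) (hM : Mᵀ * gram * M = gram) :
    toM (mkO M N h1 h2 hM : GL J (ZMod 3)) = M :=
  (Matrix.reindexAlgEquiv (ZMod 3) (ZMod 3) e7).apply_symm_apply M

theorem hQ : Cfsg.Geo.IsNondegenerateQuadraticForm Q0 :=
  isNondegenerateQuadraticForm_quadFormOdd 3 (by decide)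

theorem hexc : ¬ (Nat.card (ZMod 3) = 2 ∧ Fintype.card J = 4) :=
  not_exc_of_two_ne_zero (by decide)

/-- The parity and spinor character. -/
noncomputable def chi : O7 →* Multiplicative (ZMod 2) × Multiplicative (ZMod 2) :=
  classHom hQ hexc

theorem mem_Om_iff (g : O7) : g ∈ Om ↔ chi g = 1 := by
  rw [← MonoidHom.mem_ker, chi, ker_classHom]

theorem chi_sq (x : Multiplicative (ZMod 2) × Multiplicative (ZMod 2)) : x ^ 2 = 1 := by
  revert x; decide

theorem chi_of_odd_pow {g : O7} {k : ℕ} (hk : Odd k) (h : g ^ k = 1) : chi g = 1 := by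
  obtain ⟨a, rfl⟩ := hk
  have h1 : chi g ^ (2 * a + 1) = 1 := by rw [← map_pow, h, map_one]
  rwa [pow_succ, pow_mul, chi_sq, one_pow, one_mul] at h1

theorem det_of_mem_Om {g : O7} (hg : g ∈ Om) :
    ((g : GL J (ZMod 3)) : Matrix J J (ZMod 3)).det = 1 := by
  rw [det_eq_neg_one_pow hQ hexc g.2, ((mem_omega_iff hQ hexc g).1 hg).1.neg_one_pow]

theorem det_toM (g : GL J (ZMod 3)) : (toM g).det = (g : Matrix J J (ZMod 3)).det :=
  Matrix.det_reindexAlgEquiv (ZMod 3) (ZMod 3) e7 _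

theorem root_facts : ∀ k : Fin 9, dec (rM k) * (dec (rM k) * dec (rM k)) = 1 ∧
    dec (rM k) * dec (rM k) * dec (rM k) = 1 ∧ (dec (rM k))ᵀ * gram * dec (rM k) = gram := by
  decide +kernel

/-- The root element. -/
def rO (k : Fin 9) : O7 :=
  mkO (dec (rM k)) (dec (rM k) * dec (rM k)) (root_facts k).1 (root_facts k).2.1 (root_facts k).2.2

theorem toM_rO (k : Fin 9) : toM (rO k : GL J (ZMod 3)) = dec (rM k) := toM_mkO _ _ _ _ _

theorem rO_cube (k : Fin 9) : rO k ^ 3 = 1 :=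
  Subtype.ext (toM_injective (by
    simp only [SubgroupClass.coe_pow, map_pow, OneMemClass.coe_one, map_one, toM_rO]
    rw [pow_succ, pow_two]
    exact (root_facts k).2.1))

/-- The root element in `Omega`. -/
def rOm (k : Fin 9) : Om := ⟨rO k, (mem_Om_iff _).2 (chi_of_odd_pow ⟨1, rfl⟩ (rO_cube k))⟩

/-- The negative simple root elements. -/
def negM : List PMat := [[1, 258, 65536, 16777216, 1103806595072, 1099511627776, 281474976710656],
  [1, 256, 66048, 16777216, 4294967296, 282574488338432, 281474976710656],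
  [1, 256, 65536, 16842752, 4294967296, 1099511627776, 281474993618944]]

theorem neg_facts : ∀ k : Fin 3, dec (negM.getD k oneP) * (dec (negM.getD k oneP) * dec (negM.getD k oneP)) = 1 ∧
    dec (negM.getD k oneP) * dec (negM.getD k oneP) * dec (negM.getD k oneP) = 1 ∧
      (dec (negM.getD k oneP))ᵀ * gram * dec (negM.getD k oneP) = gram := by
  decide +kernel

theorem gen_facts : ∀ k : Fin 8, dec (gM k) * dec (gI k) = 1 ∧ dec (gI k) * dec (gM k) = 1 ∧
    (dec (gM k))ᵀ * gram * dec (gM k) = gram := by decide +kernel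

theorem gen_decomp : (∀ k : Fin 3, dec (gM k) = dec (rM k)) ∧
    (∀ k : Fin 3, dec (gM (k + 3)) = dec (rM k) * dec (negM.getD k oneP) * dec (rM k)) ∧
    (∀ k : Fin 2, dec (gM (k + 6)) = dec (gM (k + 3)) * dec (gM (k + 3))) := by
  refine ⟨?_, ?_, ?_⟩ <;> decide +kernel

/-- The generator. -/
def gO (k : Fin 8) : O7 :=
  mkO (dec (gM k)) (dec (gI k)) (gen_facts k).1 (gen_facts k).2.1 (gen_facts k).2.2

theorem toM_gO (k : Fin 8) : toM (gO k : GL J (ZMod 3)) = dec (gM k) := toM_mkO _ _ _ _ _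

theorem chi_gO (k : Fin 8) : chi (gO k) = 1 := by
  have hr : ∀ j : Fin 3, chi (rO ⟨j, by omega⟩) = 1 := fun j =>
    chi_of_odd_pow ⟨1, rfl⟩ (rO_cube _)
  have hn : ∀ j : Fin 3, chi (gO ⟨j + 3, by omega⟩) = 1 := by
    intro j
    set N := mkO (dec (negM.getD j oneP)) (dec (negM.getD j oneP) * dec (negM.getD j oneP))
      (neg_facts j).1 (neg_facts j).2.1 (neg_facts j).2.2
    have hN : chi N = 1 := chi_of_odd_pow (k := 3) ⟨1, rfl⟩ (Subtype.ext (toM_injective (by
      simp only [SubgroupClass.coe_pow, map_pow, OneMemClass.coe_one, map_one, N, toM_mkO]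
      rw [pow_succ, pow_two]
      exact (neg_facts j).2.1)))
    have he : gO ⟨j + 3, by omega⟩ = rO ⟨j, by omega⟩ * N * rO ⟨j, by omega⟩ :=
      Subtype.ext (toM_injective (by
        simp only [Subgroup.coe_mul, map_mul, N, toM_mkO, toM_gO, toM_rO]
        exact gen_decomp.2.1 j))
    rw [he, map_mul, map_mul, hr, hN, one_mul, one_mul]
  rcases lt_or_ge (k : ℕ) 3 with h | h
  · have he : gO k = rO ⟨k, by omega⟩ := Subtype.ext (toM_injective (by
      rw [toM_gO, toM_rO]; exact gen_decomp.1 ⟨k, h⟩))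
    rw [he]; exact hr ⟨k, h⟩
  rcases lt_or_ge (k : ℕ) 6 with h' | h'
  · have he : k = ⟨(k : ℕ) - 3 + 3, by omega⟩ := Fin.ext (show (k : ℕ) = k - 3 + 3 by omega)
    rw [he]; exact hn ⟨(k : ℕ) - 3, by omega⟩
  · set j : Fin 2 := ⟨(k : ℕ) - 6, by omega⟩
    have he : gO k = gO ⟨j + 3, by omega⟩ * gO ⟨j + 3, by omega⟩ :=
      Subtype.ext (toM_injective (by
        simp only [Subgroup.coe_mul, map_mul, toM_gO]
        rw [show (k : ℕ) = (j : ℕ) + 6 from (show (k : ℕ) = k - 6 + 6 by omega)]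
        exact gen_decomp.2.2 j))
    rw [he, map_mul, hn ⟨j, by omega⟩, one_mul]

/-- The generator in `Omega`. -/
def gOm (k : Fin 8) : Om := ⟨gO k, (mem_Om_iff _).2 (chi_gO k)⟩

/-- The matrix of an element of `Omega`. -/
def omToM : Om →* M7 := toM.comp (O7.subtype.comp Om.subtype)

theorem omToM_injective : Function.Injective omToM :=
  toM_injective.comp (O7.subtype_injective.comp Om.subtype_injective)

theorem omToM_rOm (k : Fin 9) : omToM (rOm k) = dec (rM k) := toM_rO k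

theorem omToM_gOm (k : Fin 8) : omToM (gOm k) = dec (gM k) := toM_gO k

end CfsgLib.Spec53.O73
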