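import Mathlib

/-!
Seven by seven matrices over `ZMod 3` as seven packed natural numbers with eight-bit digits, for
kernel computation.
-/

set_option autoImplicit false

namespace CfsgLib.Spec53.O73

/-- The `j`-th eight-bit digit. -/
def lane (r j : ℕ) : ℕ := r / 256 ^ j % 256

/-- The number with the given seven digits. -/
def pack7 (f : ℕ → ℕ) : ℕ :=
  f 0 + 256 * (f 1 + 256 * (f 2 + 256 * (f 3 + 256 * (f 4 + 256 * (f 5 + 256 * f 6)))))

theorem lane_pack7 {f : ℕ → ℕ} (hf : ∀ j, j < 7 → f j < 256) {j : ℕ} (hj : j < 7) :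
    lane (pack7 f) j = f j := by
  have h0 := hf 0 (by omega); have h1 := hf 1 (by omega); have h2 := hf 2 (by omega)
  have h3 := hf 3 (by omega); have h4 := hf 4 (by omega); have h5 := hf 5 (by omega)
  have h6 := hf 6 (by omega)
  unfold lane pack7
  interval_cases j <;> omega

theorem lane_lt (r j : ℕ) : lane r j < 256 := Nat.mod_lt _ (by omega)

theorem pack7_lane {r : ℕ} (hr : r < 256 ^ 7) : pack7 (lane r) = r := by
  simp only [lane, pack7]
  omega

/-- A row is normal when it has seven digits, each at most two. -/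
def okRow (r : ℕ) : Bool :=
  decide (r < 256 ^ 7) && decide (lane r 0 ≤ 2) && decide (lane r 1 ≤ 2) && decide (lane r 2 ≤ 2) &&
    decide (lane r 3 ≤ 2) && decide (lane r 4 ≤ 2) && decide (lane r 5 ≤ 2) && decide (lane r 6 ≤ 2)

theorem okRow_spec {r : ℕ} (h : okRow r = true) :
    r < 256 ^ 7 ∧ ∀ j, j < 7 → lane r j ≤ 2 := by
  simp only [okRow, Bool.and_eq_true, decide_eq_true_eq] at h
  obtain ⟨⟨⟨⟨⟨⟨⟨h, a0⟩, a1⟩, a2⟩, a3⟩, a4⟩, a5⟩, a6⟩ := h
  refine ⟨h, fun j hj => ?_⟩
  interval_cases j <;> assumption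

/-- Matrices: the list of packed rows. -/
abbrev PMat := List ℕ

/-- The matrix over `ZMod 3` of a packed matrix. -/
def dec (M : PMat) : Matrix (Fin 7) (Fin 7) (ZMod 3) :=
  Matrix.of fun i j => ((lane (M.getD (i : ℕ) 0) (j : ℕ) : ℕ) : ZMod 3)

/-- A packed matrix is normal. -/
def okMat (M : PMat) : Bool := decide (M.length = 7) && M.all okRow

theorem okMat_getD {M : PMat} (h : okMat M = true) {i : ℕ} (hi : i < 7) :
    okRow (M.getD i 0) = true := by
  simp only [okMat, Bool.and_eq_true, decide_eq_true_eq, List.all_eq_true] at h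
  have hi' : i < M.length := by omega
  rw [List.getD_eq_getElem (hn := hi')]
  exact h.2 _ (List.getElem_mem hi')

/-- A row times a matrix, digits not reduced. -/
def rowMul (r : ℕ) : PMat → ℕ
  | [b0, b1, b2, b3, b4, b5, b6] =>
    lane r 0 * b0 + lane r 1 * b1 + lane r 2 * b2 + lane r 3 * b3 + lane r 4 * b4 + lane r 5 * b5 +
      lane r 6 * b6
  | _ => 0

theorem rowMul_eq {r : ℕ} {B : PMat} (hr : okRow r = true) (hB : okMat B = true) :
    rowMul r B = pack7 (fun j => ∑ k ∈ Finset.range 7, lane r k * lane (B.getD k 0) j) ∧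
      ∀ j, j < 7 → (∑ k ∈ Finset.range 7, lane r k * lane (B.getD k 0) j) ≤ 28 := by
  obtain ⟨-, hr2⟩ := okRow_spec hr
  have hb : ∀ k, k < 7 → pack7 (lane (B.getD k 0)) = B.getD k 0 ∧
      ∀ j, j < 7 → lane (B.getD k 0) j ≤ 2 := fun k hk =>
    ⟨pack7_lane (okRow_spec (okMat_getD hB hk)).1, (okRow_spec (okMat_getD hB hk)).2⟩
  refine ⟨?_, fun j hj => ?_⟩
  · have hlen : B.length = 7 := by
      simp only [okMat, Bool.and_eq_true, decide_eq_true_eq] at hB
      exact hB.1
    match B, hlen with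
    | [b0, b1, b2, b3, b4, b5, b6], _ =>
      have e0 := (hb 0 (by omega)).1; have e1 := (hb 1 (by omega)).1; have e2 := (hb 2 (by omega)).1
      have e3 := (hb 3 (by omega)).1; have e4 := (hb 4 (by omega)).1; have e5 := (hb 5 (by omega)).1
      have e6 := (hb 6 (by omega)).1
      simp only [List.getD_cons_zero, List.getD_cons_succ] at e0 e1 e2 e3 e4 e5 e6
      conv_lhs => rw [rowMul, ← e0, ← e1, ← e2, ← e3, ← e4, ← e5, ← e6]
      simp only [pack7, Finset.sum_range_succ, Finset.sum_range_zero, zero_add,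
        List.getD_cons_zero, List.getD_cons_succ]
      ring
  · calc _ ≤ ∑ k ∈ Finset.range 7, 2 * 2 := Finset.sum_le_sum fun k hk =>
          Nat.mul_le_mul (hr2 k (Finset.mem_range.1 hk)) ((hb k (Finset.mem_range.1 hk)).2 j hj)
      _ = 28 := by simp

/-- The product with digits not reduced. -/
def mulRaw (A B : PMat) : PMat := A.map fun r => rowMul r B

theorem mulRaw_getD (A B : PMat) {i : ℕ} (hA : A.length = 7) (hi : i < 7) :
    (mulRaw A B).getD i 0 = rowMul (A.getD i 0) B := by
  rw [mulRaw, List.getD_eq_getElem (hn := by simp; omega),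
    List.getD_eq_getElem (hn := by omega), List.getElem_map]

theorem okMat_length {M : PMat} (h : okMat M = true) : M.length = 7 := by
  simp only [okMat, Bool.and_eq_true, decide_eq_true_eq] at h
  exact h.1

theorem lane_mulRaw {A B : PMat} (hA : okMat A = true) (hB : okMat B = true) {i j : ℕ}
    (hi : i < 7) (hj : j < 7) :
    lane ((mulRaw A B).getD i 0) j =
        ∑ k ∈ Finset.range 7, lane (A.getD i 0) k * lane (B.getD k 0) j ∧
      lane ((mulRaw A B).getD i 0) j ≤ 28 := by
  obtain ⟨h1, h2⟩ := rowMul_eq (okMat_getD hA hi) hB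
  rw [mulRaw_getD A B (okMat_length hA) hi, h1,
    lane_pack7 (fun k hk => (h2 k hk).trans_lt (by omega)) hj]
  exact ⟨rfl, h2 j hj⟩

theorem dec_mulRaw {A B : PMat} (hA : okMat A = true) (hB : okMat B = true) :
    dec (mulRaw A B) = dec A * dec B := by
  ext i j
  rw [Matrix.mul_apply]
  show ((lane ((mulRaw A B).getD (i : ℕ) 0) (j : ℕ) : ℕ) : ZMod 3) = _
  rw [(lane_mulRaw hA hB i.2 j.2).1, Nat.cast_sum,
    Finset.sum_range (fun k => ((lane (A.getD (i : ℕ) 0) k * lane (B.getD k 0) (j : ℕ) : ℕ) : ZMod 3))]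
  exact Finset.sum_congr rfl fun k _ => by rw [Nat.cast_mul]; rfl

/-- Reduce all digits modulo three. -/
def norm (M : PMat) : PMat := M.map fun r => pack7 fun j => lane r j % 3

theorem norm_getD (M : PMat) {i : ℕ} (hM : M.length = 7) (hi : i < 7) :
    (norm M).getD i 0 = pack7 (fun j => lane (M.getD i 0) j % 3) := by
  rw [norm, List.getD_eq_getElem (hn := by simp; omega),
    List.getD_eq_getElem (hn := by omega), List.getElem_map]

theorem okMat_norm {M : PMat} (hM : M.length = 7) : okMat (norm M) = true := by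
  simp only [okMat, norm, Bool.and_eq_true, decide_eq_true_eq, List.length_map, List.all_eq_true,
    List.mem_map]
  refine ⟨hM, ?_⟩
  rintro _ ⟨r, -, rfl⟩
  have hb : ∀ j, j < 7 → (fun j => lane r j % 3) j < 256 :=
    fun j _ => (Nat.mod_lt _ (by omega : 3 > 0)).trans (by omega)
  have hl : ∀ j, j < 7 → lane (pack7 fun j => lane r j % 3) j ≤ 2 := fun j hj => by
    rw [lane_pack7 hb hj]
    have := Nat.mod_lt (lane r j) (by omega : 3 > 0)
    omega
  simp only [okRow, Bool.and_eq_true, decide_eq_true_eq]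
  refine ⟨⟨⟨⟨⟨⟨⟨?_, hl 0 (by omega)⟩, hl 1 (by omega)⟩, hl 2 (by omega)⟩, hl 3 (by omega)⟩,
    hl 4 (by omega)⟩, hl 5 (by omega)⟩, hl 6 (by omega)⟩
  have := hb 0 (by omega); have := hb 1 (by omega); have := hb 2 (by omega)
  have := hb 3 (by omega); have := hb 4 (by omega); have := hb 5 (by omega)
  have := hb 6 (by omega)
  simp only [pack7] at *
  omega

theorem dec_norm {M : PMat} (hM : M.length = 7) : dec (norm M) = dec M := by
  ext i j
  show ((lane ((norm M).getD (i : ℕ) 0) (j : ℕ) : ℕ) : ZMod 3) = _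
  rw [norm_getD M hM i.2,
    lane_pack7 (fun k _ => (Nat.mod_lt _ (by omega : 3 > 0)).trans (by omega)) j.2,
    ZMod.natCast_mod]
  rfl

/-- The normalised product. -/
def mulP (A B : PMat) : PMat := norm (mulRaw A B)

theorem okMat_mulP {A B : PMat} (hA : okMat A = true) : okMat (mulP A B) = true :=
  okMat_norm (by rw [mulRaw, List.length_map, okMat_length hA])

theorem dec_mulP {A B : PMat} (hA : okMat A = true) (hB : okMat B = true) :
    dec (mulP A B) = dec A * dec B := by
  rw [mulP, dec_norm (by rw [mulRaw, List.length_map, okMat_length hA]), dec_mulRaw hA hB]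

/-- The identity matrix. -/
def oneP : PMat := (List.range 7).map fun i => 256 ^ i

theorem okMat_oneP : okMat oneP = true := by decide +kernel

theorem dec_oneP : dec oneP = 1 := by decide +kernel

/-- A product of a word of packed matrices. -/
def prodP : List PMat → PMat
  | [] => oneP
  | M :: l => mulP M (prodP l)

theorem prodP_spec : ∀ {l : List PMat}, (∀ M ∈ l, okMat M = true) →
    okMat (prodP l) = true ∧ dec (prodP l) = (l.map dec).prod := by
  intro l hl
  induction l with
  | nil => exact ⟨okMat_oneP, by simpa [prodP] using dec_oneP⟩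
  | cons M l ih =>
    obtain ⟨h1, h2⟩ := ih fun N hN => hl N (List.mem_cons_of_mem _ hN)
    have hM := hl M List.mem_cons_self
    exact ⟨okMat_mulP hM, by rw [prodP, dec_mulP hM h1, List.map_cons, List.prod_cons, h2]⟩

/-- Two bits above the admissible range in each digit. -/
def highMask : ℕ := pack7 fun _ => 192

/-- Digitwise congruence modulo three of two rows with digits at most `28`. -/
def eqRow (a b : ℕ) : Bool :=
  let v := a + 2 * b
  decide (v % 3 = 0) && decide ((v / 3) &&& highMask = 0) && decide (v / 3 < 256 ^ 7)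

theorem eqRow_spec {a b : ℕ} (h : eqRow a b = true) {f g : ℕ → ℕ}
    (hf : ∀ j, j < 7 → f j ≤ 28) (hg : ∀ j, j < 7 → g j ≤ 28) (ha : a = pack7 f) (hb : b = pack7 g)
    {j : ℕ} (hj : j < 7) : (f j : ZMod 3) = (g j : ZMod 3) := by
  simp only [eqRow, Bool.and_eq_true, decide_eq_true_eq] at h
  obtain ⟨⟨h3, hmask⟩, hlt⟩ := h
  set w := (a + 2 * b) / 3 with hw
  have hv : a + 2 * b = 3 * w := by omega
  have hlane : ∀ k, k < 7 → lane w k < 64 := by
    intro k hk
    have h1 : lane w k &&& 192 = 0 := by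
      have h2 : lane highMask k = 192 := lane_pack7 (fun _ _ => by omega) hk
      rw [← h2]
      have h3 : (w &&& highMask) / 256 ^ k % 256 = 0 := by rw [hmask]; simp
      rw [show (256 : ℕ) ^ k = 2 ^ (8 * k) by rw [pow_mul]; norm_num, Nat.and_div_two_pow,
        show (256 : ℕ) = 2 ^ 8 by norm_num, Nat.and_mod_two_pow] at h3
      simpa [lane, pow_mul] using h3
    have h4 := lane_lt w k
    have : ∀ x : Fin 256, (x : ℕ) &&& 192 = 0 → (x : ℕ) < 64 := by decide +kernel
    exact this ⟨lane w k, h4⟩ h1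
  have e1 : a + 2 * b = pack7 (fun k => f k + 2 * g k) := by
    rw [ha, hb]; simp only [pack7]; ring
  have e2 : a + 2 * b = pack7 (fun k => 3 * lane w k) := by
    rw [hv]
    conv_lhs => rw [← pack7_lane hlt]
    simp only [pack7]; ring
  have e3 := congrArg (fun x => lane x j) (e1.symm.trans e2)
  rw [lane_pack7 (fun k hk => by have := hf k hk; have := hg k hk; omega) hj,
    lane_pack7 (fun k hk => by have := hlane k hk; omega) hj] at e3
  have h0 : ((f j + 2 * g j : ℕ) : ZMod 3) = 0 := by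
    rw [e3, Nat.cast_mul]
    exact zero_mul _
  push_cast at h0
  calc (f j : ZMod 3) = ((f j : ZMod 3) + 2 * g j) + g j := by
        have h33 : (3 : ZMod 3) = 0 := by decide
        linear_combination -(g j : ZMod 3) * h33
    _ = g j := by rw [h0, zero_add]

/-- `A * B` and `C * D` agree modulo three. -/
def eqProd (A B C D : PMat) : Bool :=
  (List.range 7).all fun i => eqRow (rowMul (A.getD i 0) B) (rowMul (C.getD i 0) D)

theorem eqProd_spec {A B C D : PMat} (hA : okMat A = true) (hB : okMat B = true)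
    (hC : okMat C = true) (hD : okMat D = true) (h : eqProd A B C D = true) :
    dec A * dec B = dec C * dec D := by
  rw [← dec_mulRaw hA hB, ← dec_mulRaw hC hD]
  ext i j
  show ((lane ((mulRaw A B).getD (i : ℕ) 0) (j : ℕ) : ℕ) : ZMod 3) =
    ((lane ((mulRaw C D).getD (i : ℕ) 0) (j : ℕ) : ℕ) : ZMod 3)
  rw [(lane_mulRaw hA hB i.2 j.2).1, (lane_mulRaw hC hD i.2 j.2).1]
  have h1 := List.all_eq_true.1 h i.1 (List.mem_range.2 i.2)
  exact eqRow_spec h1 (rowMul_eq (okMat_getD hA i.2) hB).2 (rowMul_eq (okMat_getD hC i.2) hD).2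
    (rowMul_eq (okMat_getD hA i.2) hB).1 (rowMul_eq (okMat_getD hC i.2) hD).1 j.2

/-- The `i`-th row of the cube of `A * B`. -/
def cubeRow (A B : PMat) (i : ℕ) : ℕ :=
  let step := fun r => pack7 fun j => lane (rowMul r B) j % 3
  let pre := fun r => pack7 fun j => lane (rowMul r A) j % 3
  step (pre (step (pre (step (pre (256 ^ i))))))

theorem rowStep_spec {r : ℕ} {B : PMat} (hr : okRow r = true) (hB : okMat B = true) :
    okRow (pack7 fun j => lane (rowMul r B) j % 3) = true ∧
      (fun j : Fin 7 => ((lane (pack7 fun j => lane (rowMul r B) j % 3) (j : ℕ) : ℕ) : ZMod 3)) =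
        Matrix.vecMul (fun k : Fin 7 => ((lane r (k : ℕ) : ℕ) : ZMod 3)) (dec B) := by
  obtain ⟨h1, h2⟩ := rowMul_eq hr hB
  have hb : ∀ j, j < 7 → (fun j => lane (rowMul r B) j % 3) j < 256 :=
    fun j _ => (Nat.mod_lt _ (by omega : 3 > 0)).trans (by omega)
  refine ⟨?_, funext fun j => ?_⟩
  · have h := okMat_norm (M := List.replicate 7 (rowMul r B)) (List.length_replicate ..)
    simp only [okMat, norm, Bool.and_eq_true, List.all_eq_true, List.mem_map] at h
    exact h.2 _ ⟨rowMul r B, List.mem_replicate.2 ⟨by omega, rfl⟩, rfl⟩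
  · rw [lane_pack7 hb j.2, ZMod.natCast_mod, h1,
      lane_pack7 (fun k hk => (h2 k hk).trans_lt (by omega)) j.2, Nat.cast_sum,
      Finset.sum_range (fun k => ((lane r k * lane (B.getD k 0) (j : ℕ) : ℕ) : ZMod 3))]
    simp only [Matrix.vecMul, dotProduct, Nat.cast_mul]
    rfl

theorem cubeRow_spec {A B : PMat} (hA : okMat A = true) (hB : okMat B = true) (i : Fin 7)
    (h : (dec A * dec B) ^ 3 = 1) : cubeRow A B i = 256 ^ (i : ℕ) := by
  have h0 : okRow (256 ^ (i : ℕ)) = true := by revert i; decide +kernel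
  have hi0 : (fun k : Fin 7 => ((lane (256 ^ (i : ℕ)) (k : ℕ) : ℕ) : ZMod 3)) =
      (1 : Matrix (Fin 7) (Fin 7) (ZMod 3)) i := by
    funext k
    have h : ∀ i : Fin 7, oneP.getD (i : ℕ) 0 = 256 ^ (i : ℕ) := by decide +kernel
    rw [← dec_oneP]
    show _ = ((lane (oneP.getD (i : ℕ) 0) (k : ℕ) : ℕ) : ZMod 3)
    rw [h i]
  obtain ⟨k1, v1⟩ := rowStep_spec h0 hA
  obtain ⟨k2, v2⟩ := rowStep_spec k1 hB
  obtain ⟨k3, v3⟩ := rowStep_spec k2 hA
  obtain ⟨k4, v4⟩ := rowStep_spec k3 hB
  obtain ⟨k5, v5⟩ := rowStep_spec k4 hA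
  obtain ⟨k6, v6⟩ := rowStep_spec k5 hB
  rw [v5, v4, v3, v2, v1, hi0] at v6
  simp only [Matrix.vecMul_vecMul] at v6
  rw [show dec A * dec B * dec A * dec B * dec A * dec B = (dec A * dec B) ^ 3 by
    rw [pow_succ, pow_two]; simp only [mul_assoc]] at v6
  rw [h, Matrix.vecMul_one, ← hi0] at v6
  have k6' : okRow (cubeRow A B i) = true := k6
  have hlt := (okRow_spec k6').1
  have hlt' := (okRow_spec h0).1
  have hl : ∀ j, j < 7 → lane (cubeRow A B i) j = lane (256 ^ (i : ℕ)) j := fun j hj => by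
    have h7 := congrFun v6 ⟨j, hj⟩
    have a1 := (okRow_spec k6').2 j hj
    have a2 := (okRow_spec h0).2 j hj
    have h8 : lane (cubeRow A B i) j % 3 = lane (256 ^ (i : ℕ)) j % 3 :=
      (ZMod.natCast_eq_natCast_iff' _ _ 3).1 h7
    rw [Nat.mod_eq_of_lt (by omega), Nat.mod_eq_of_lt (by omega)] at h8
    exact h8
  rw [← pack7_lane hlt', show cubeRow A B i = pack7 (lane (cubeRow A B i)) from
    (pack7_lane hlt).symm]
  unfold pack7
  rw [hl 0 (by omega), hl 1 (by omega), hl 2 (by omega), hl 3 (by omega), hl 4 (by omega),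
    hl 5 (by omega), hl 6 (by omega)]

end CfsgLib.Spec53.O73
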