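import Cfsg.Agent.Spec53.O73.Sylow

/-!
The centraliser in `SO7(3)` of the first representative lies in `Omega7(3)`.
-/

set_option autoImplicit false

namespace CfsgLib.Spec53.O73

open Matrix CfsgLib.Classical.Orth

/-- The matrix `x - 1` of the first representative. -/
def dMat : M7 := dec [256 ^ 3 + 256 ^ 4 * 2, 256 ^ 6, 256 ^ 5 * 2, 256 ^ 4, 0, 0, 0]

theorem wordM_972 : wordM 972 = 1 + dMat := by decide +kernel

theorem dMat_apply (i j : Fin 7) : dMat i j =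
    if i = 0 ∧ j = 3 then 1 else if i = 0 ∧ j = 4 then 2 else if i = 1 ∧ j = 6 then 1
      else if i = 2 ∧ j = 5 then 2 else if i = 3 ∧ j = 4 then 1 else 0 := by
  have h0 : dMat = Matrix.of fun i j : Fin 7 =>
      if i = 0 ∧ j = 3 then (1 : ZMod 3) else if i = 0 ∧ j = 4 then 2 else if i = 1 ∧ j = 6 then 1
      else if i = 2 ∧ j = 5 then 2 else if i = 3 ∧ j = 4 then 1 else 0 := by decide +kernel
  rw [h0]; rfl

/-- The coordinates `u`. -/
def iu (a : Fin 3) : Fin 7 := ⟨a, by omega⟩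

/-- The coordinates `w`. -/
def iw (a : Fin 3) : Fin 7 := ⟨(a : ℕ) + 4, by omega⟩

theorem coord_cases (i : Fin 7) : (∃ a, i = iu a) ∨ i = 3 ∨ ∃ a, i = iw a := by
  revert i; decide

theorem sum_coord (f : Fin 7 → ZMod 3) :
    ∑ i, f i = (∑ a, f (iu a)) + f 3 + ∑ a, f (iw a) := by
  simp [Fin.sum_univ_seven, Fin.sum_univ_three, iu, iw]
  ring

/-- The splitting of the coordinates. -/
def e3 : Fin 3 ⊕ (Unit ⊕ Fin 3) ≃ Fin 7 where
  toFun := fun x => match x with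
    | .inl a => iu a
    | .inr (.inl _) => 3
    | .inr (.inr a) => iw a
  invFun := ![.inl 0, .inl 1, .inl 2, .inr (.inl ()), .inr (.inr 0), .inr (.inr 1), .inr (.inr 2)]
  left_inv := by decide
  right_inv := by decide

/-- The Levi embedding on `Fin 7`. -/
def levM (A B : Matrix (Fin 3) (Fin 3) (ZMod 3)) : M7 :=
  Matrix.reindexAlgEquiv (ZMod 3) (ZMod 3) e3 (fromBlocks A 0 0 (fromBlocks 1 0 0 Bᵀ))

theorem levM_one : levM 1 1 = 1 := by
  rw [levM, Matrix.transpose_one, Matrix.fromBlocks_one, Matrix.fromBlocks_one, map_one]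

theorem levM_mul (A B A' B' : Matrix (Fin 3) (Fin 3) (ZMod 3)) :
    levM A B * levM A' B' = levM (A * A') (B' * B) := by
  rw [levM, levM, levM, ← map_mul, Matrix.fromBlocks_multiply]
  simp [Matrix.fromBlocks_multiply, Matrix.transpose_mul]

theorem levM_entries (A B : Matrix (Fin 3) (Fin 3) (ZMod 3)) :
    (∀ a b, levM A B (iu a) (iu b) = A a b) ∧ (∀ a, levM A B (iu a) 3 = 0) ∧
      (∀ a b, levM A B (iu a) (iw b) = 0) ∧ (∀ b, levM A B 3 (iu b) = 0) ∧ levM A B 3 3 = 1 ∧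
      (∀ b, levM A B 3 (iw b) = 0) ∧ (∀ a b, levM A B (iw a) (iu b) = 0) ∧
      (∀ a, levM A B (iw a) 3 = 0) ∧ (∀ a b, levM A B (iw a) (iw b) = B b a) := by
  have h3 : e3.symm 3 = .inr (.inl ()) := rfl
  have hu : ∀ a, e3.symm (iu a) = .inl a := by decide
  have hw : ∀ a, e3.symm (iw a) = .inr (.inr a) := by decide
  refine ⟨?_, ?_, ?_, ?_, ?_, ?_, ?_, ?_, ?_⟩ <;> intros <;>
    simp [levM, Matrix.reindexAlgEquiv_apply, h3, hu, hw]

theorem gram_form (M : M7) (i j : Fin 7) :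
    (Mᵀ * gram * M) i j = 2 * (∑ k, M (iu k) i * M (iw k) j) + M 3 i * M 3 j +
      2 * (∑ k, M (iw k) i * M (iu k) j) := by
  have h0 : gram = Matrix.of (![![0, 0, 0, 0, 2, 0, 0], ![0, 0, 0, 0, 0, 2, 0],
      ![0, 0, 0, 0, 0, 0, 2], ![0, 0, 0, 1, 0, 0, 0], ![2, 0, 0, 0, 0, 0, 0],
      ![0, 2, 0, 0, 0, 0, 0], ![0, 0, 2, 0, 0, 0, 0]] : Fin 7 → Fin 7 → ZMod 3) := by decide +kernel
  rw [h0]
  simp [Matrix.mul_apply, Fin.sum_univ_seven, Fin.sum_univ_three, iu, iw]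
  ring

theorem gram_entries :
    (∀ a b, gram (iu a) (iw b) = if a = b then 2 else 0) ∧
      (∀ a b, gram (iw a) (iu b) = if a = b then 2 else 0) ∧
      (∀ a b, gram (iu a) (iu b) = 0) ∧ (∀ a b, gram (iw a) (iw b) = 0) ∧
      (∀ a, gram (iu a) 3 = 0) ∧ (∀ a, gram (iw a) 3 = 0) ∧ (∀ a, gram 3 (iu a) = 0) ∧
      (∀ a, gram 3 (iw a) = 0) ∧ gram 3 3 = 1 := by
  have h0 : gram = Matrix.of (![![0, 0, 0, 0, 2, 0, 0], ![0, 0, 0, 0, 0, 2, 0],
      ![0, 0, 0, 0, 0, 0, 2], ![0, 0, 0, 1, 0, 0, 0], ![2, 0, 0, 0, 0, 0, 0],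
      ![0, 2, 0, 0, 0, 0, 0], ![0, 0, 2, 0, 0, 0, 0]] : Fin 7 → Fin 7 → ZMod 3) := by decide +kernel
  rw [h0]
  refine ⟨?_, ?_, ?_, ?_, ?_, ?_, ?_, ?_, ?_⟩ <;> intros <;>
    first | rfl | (rename_i a b; fin_cases a <;> fin_cases b <;> rfl) | (rename_i a; fin_cases a <;> rfl)

theorem levM_gram (A B : Matrix (Fin 3) (Fin 3) (ZMod 3)) (h : B * A = 1) :
    (levM A B)ᵀ * gram * levM A B = gram := by
  obtain ⟨l1, l2, l3, l4, l5, l6, l7, l8, l9⟩ := levM_entries A B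
  obtain ⟨g1, g2, g3, g4, g5, g6, g7, g8, g9⟩ := gram_entries
  have e : ∀ a b, ∑ k, A k b * B a k = if a = b then 1 else 0 := fun a b => by
    rw [← Matrix.one_apply, ← h, Matrix.mul_apply]
    exact Finset.sum_congr rfl fun k _ => mul_comm _ _
  have e' : ∀ a b, ∑ k, A k a * B b k = if a = b then 1 else 0 := fun a b => by
    rw [e]; simp only [eq_comm]
  have e'' : ∀ a b, ∑ k, B a k * A k b = if a = b then 1 else 0 := fun a b => by
    rw [← Matrix.one_apply, ← h, Matrix.mul_apply]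
  ext i j
  rw [gram_form]
  rcases coord_cases i with ⟨a, rfl⟩ | rfl | ⟨a, rfl⟩ <;>
    rcases coord_cases j with ⟨b, rfl⟩ | rfl | ⟨b, rfl⟩ <;>
    simp [l1, l2, l3, l4, l5, l6, l7, l8, l9, g1, g2, g3, g4, g5, g6, g7, g8, g9, e', e'']

/-- The Levi subgroup. -/
def lev : GL (Fin 3) (ZMod 3) →* O7 where
  toFun A := mkO (levM A.val A.inv) (levM A.inv A.val)
    (by rw [levM_mul, A.val_inv, levM_one])
    (by rw [levM_mul, A.inv_val, levM_one]) (levM_gram _ _ A.inv_val)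
  map_one' := Subtype.ext (toM_injective (by rw [toM_mkO, OneMemClass.coe_one, map_one]; exact levM_one))
  map_mul' A B := Subtype.ext (toM_injective (by
    rw [Subgroup.coe_mul, map_mul, toM_mkO, toM_mkO, toM_mkO, levM_mul]; rfl))

theorem toM_lev (A : GL (Fin 3) (ZMod 3)) :
    toM (lev A : GL J (ZMod 3)) = levM A.val A.inv :=
  toM_mkO (levM A.val A.inv) (levM A.inv A.val) (by rw [levM_mul, A.val_inv, levM_one])
    (by rw [levM_mul, A.inv_val, levM_one]) (levM_gram _ _ A.inv_val)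

/-- The diagonal element of sign vector `d`. -/
def diagGL (d : Fin 3 → (ZMod 3)ˣ) : GL (Fin 3) (ZMod 3) :=
  Units.map (Matrix.diagonalRingHom (Fin 3) (ZMod 3)).toMonoidHom
    (MulEquiv.piUnits.symm d)

/-- The element `diag (-1, 1, 1)` of the Levi factor. -/
def hO : O7 := lev (diagGL ![-1, 1, 1])

theorem hO_sq : hO * hO = 1 := by
  rw [hO, ← map_mul, show diagGL ![-1, 1, 1] * diagGL ![-1, 1, 1] = 1 from ?_, map_one]
  decide +kernel

theorem refl_list_hO : ((hO : GL J (ZMod 3)) : Matrix J J (ZMod 3)) =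
    ([(Pi.single (Sum.inr (Sum.inl 0)) 1 + Pi.single (Sum.inr (Sum.inr 0)) 1 : J → ZMod 3),
      Pi.single (Sum.inr (Sum.inl 0)) 1 - Pi.single (Sum.inr (Sum.inr 0)) 1].map
        fun v => Cfsg.reflectionMatrix Q0 v).prod := by
  decide +kernel

theorem hO_facts : chi hO ≠ 1 ∧ ((hO : GL J (ZMod 3)) : Matrix J J (ZMod 3)).det = 1 := by
  set vs := [(Pi.single (Sum.inr (Sum.inl 0)) 1 + Pi.single (Sum.inr (Sum.inr 0)) 1 : J → ZMod 3),
      Pi.single (Sum.inr (Sum.inl 0)) 1 - Pi.single (Sum.inr (Sum.inr 0)) 1]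
  have hvs : ∀ v ∈ vs, Q0 v ≠ 0 := by decide +kernel
  constructor
  · rw [Ne, ← mem_Om_iff, mem_omega_iff_of_prod hQ hexc hO vs hvs refl_list_hO]
    rintro ⟨-, hsq⟩
    rw [show (vs.map Q0).prod = 2 by decide +kernel] at hsq
    obtain ⟨r, hr⟩ := hsq
    revert hr r
    decide
  · rw [refl_list_hO, List.map_cons, List.map_cons, List.map_nil, List.prod_cons, List.prod_cons,
      List.prod_nil, mul_one, Matrix.det_mul, det_reflection hQ (hvs _ List.mem_cons_self),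
      det_reflection hQ (hvs _ (List.mem_cons_of_mem _ List.mem_cons_self))]
    norm_num

/-- The character on `GL3`. -/
noncomputable def psi : GL (Fin 3) (ZMod 3) →* Multiplicative (ZMod 2) × Multiplicative (ZMod 2) :=
  chi.comp lev

theorem psi_of_sq {A S : GL (Fin 3) (ZMod 3)} (h : S * S = A) : psi A = 1 := by
  rw [← h, map_mul, ← pow_two, chi_sq]

theorem psi_transvection (t : Matrix.TransvectionStruct (Fin 3) (ZMod 3))
    (A : GL (Fin 3) (ZMod 3)) (hA : A.val = t.toMatrix) : psi A = 1 := by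
  have h3 : A ^ 3 = 1 := by
    refine Units.ext ?_
    rw [Units.val_pow_eq_pow_val, hA, Units.val_one, pow_succ, pow_two]
    obtain ⟨i, j, hij, c⟩ := t
    simp only [Matrix.TransvectionStruct.toMatrix]
    rw [Matrix.transvection_mul_transvection_same (h := hij), Matrix.transvection_mul_transvection_same (h := hij),
      show c + c + c = 0 by
        have h33 : (3 : ZMod 3) = 0 := by decide
        linear_combination c * h33, Matrix.transvection_zero]
  have h : psi A ^ (2 * 1 + 1) = 1 := by rw [← map_pow]; show psi (A ^ 3) = 1; rw [h3, map_one]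
  rwa [pow_succ, pow_mul, chi_sq, one_pow, one_mul] at h

theorem psi_eq (A : GL (Fin 3) (ZMod 3)) :
    (A.val.det = 1 → psi A = 1) ∧ (A.val.det ≠ 1 → psi A = chi hO) := by
  obtain ⟨L, L', D, hA⟩ := Matrix.Pivot.exists_list_transvec_mul_diagonal_mul_list_transvec A.val
  have hlist : ∀ l : List (Matrix.TransvectionStruct (Fin 3) (ZMod 3)),
      ∃ G : GL (Fin 3) (ZMod 3), G.val = (l.map Matrix.TransvectionStruct.toMatrix).prod ∧
        psi G = 1 := by
    intro l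
    induction l with
    | nil => exact ⟨1, rfl, map_one _⟩
    | cons t l ih =>
      obtain ⟨G, hG, hG1⟩ := ih
      have hu : IsUnit t.toMatrix := by
        rw [Matrix.isUnit_iff_isUnit_det, Matrix.TransvectionStruct.det]; exact isUnit_one
      exact ⟨hu.unit * G, by rw [Units.val_mul, hG, IsUnit.unit_spec, List.map_cons, List.prod_cons],
        by rw [map_mul, psi_transvection t hu.unit hu.unit_spec, hG1, one_mul]⟩
  obtain ⟨G, hG, hG1⟩ := hlist L
  obtain ⟨G', hG', hG1'⟩ := hlist L'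
  have hdet : A.val.det = ∏ i, D i := by
    rw [hA, Matrix.det_mul, Matrix.det_mul, Matrix.TransvectionStruct.det_toMatrix_prod,
      Matrix.TransvectionStruct.det_toMatrix_prod, one_mul, mul_one, Matrix.det_diagonal]
  have hD : ∀ i, D i ≠ 0 := by
    intro i hi
    have h0 : A.val.det = 0 := by rw [hdet]; exact Finset.prod_eq_zero (Finset.mem_univ i) hi
    exact Matrix.GeneralLinearGroup.det_ne_zero A h0
  set d : Fin 3 → (ZMod 3)ˣ := fun i => Units.mk0 (D i) (hD i)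
  have hAd : A = G * diagGL d * G' := Units.ext (by
    rw [Units.val_mul, Units.val_mul, hG, hG', hA]; rfl)
  have hpsi : psi A = psi (diagGL d) := by rw [hAd, map_mul, map_mul, hG1, hG1', one_mul, mul_one]
  have hd' : A.val.det = ((∏ i, d i : (ZMod 3)ˣ) : ZMod 3) := by
    rw [hdet, Units.coe_prod]; rfl
  set δ := ∏ i, d i
  have hsplit : diagGL d = diagGL ![δ, 1, 1] * diagGL ![d 1 * d 1 * (d 1 * d 2), d 1, d 2] := by
    have key : ∀ a b c : (ZMod 3)ˣ, diagGL ![a, b, c] =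
        diagGL ![a * b * c, 1, 1] * diagGL ![b * b * (b * c), b, c] := by decide +kernel
    have h := key (d 0) (d 1) (d 2)
    rw [show d = ![d 0, d 1, d 2] from funext fun i => by fin_cases i <;> rfl]
    simp only [δ, Fin.prod_univ_three] at h ⊢
    exact h
  have hsq : ∀ b c : (ZMod 3)ˣ, ∃ S T : GL (Fin 3) (ZMod 3),
      S * S * (T * T) = diagGL ![b * b * (b * c), b, c] := by
    have hR : ∀ P : Matrix (Fin 3) (Fin 3) (ZMod 3), P * (P * P * P) = 1 → P * P * P * P = 1 →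
        ∃ S : GL (Fin 3) (ZMod 3), S.val = P := fun P h1 h2 => ⟨⟨P, P * P * P, h1, h2⟩, rfl⟩
    obtain ⟨S, hS⟩ := hR !![0, 2, 0; 1, 0, 0; 0, 0, 1] (by decide +kernel) (by decide +kernel)
    obtain ⟨T, hT⟩ := hR !![0, 0, 2; 0, 1, 0; 1, 0, 0] (by decide +kernel) (by decide +kernel)
    have hU : ∀ u : (ZMod 3)ˣ, u = 1 ∨ u = -1 := by decide +kernel
    intro b c
    rcases hU b with rfl | rfl <;> rcases hU c with rfl | rfl
    · exact ⟨1, 1, by decide +kernel⟩
    · refine ⟨1, T, Units.ext ?_⟩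
      simp only [Units.val_mul, Units.val_one, hT]
      decide +kernel
    · refine ⟨S, 1, Units.ext ?_⟩
      simp only [Units.val_mul, Units.val_one, hS]
      decide +kernel
    · refine ⟨S, T, Units.ext ?_⟩
      simp only [Units.val_mul, hS, hT]
      decide +kernel
  obtain ⟨S, T, hST⟩ := hsq (d 1) (d 2)
  have hfin : psi A = psi (diagGL ![δ, 1, 1]) := by
    rw [hpsi, hsplit, map_mul, ← hST, map_mul, psi_of_sq rfl, psi_of_sq rfl, mul_one, mul_one]
  have hU : ∀ u : (ZMod 3)ˣ, u = 1 ∨ u = -1 := by decide +kernel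
  rcases hU δ with h | h
  · refine ⟨fun _ => ?_, fun hne => absurd (by rw [hd', h, Units.val_one]) hne⟩
    rw [hfin, h, show diagGL ![1, 1, 1] = 1 from by decide +kernel, map_one]
  · refine ⟨fun h1 => ?_, fun _ => by rw [hfin, h]; rfl⟩
    rw [hd', h] at h1
    exact absurd h1 (by decide)

theorem det_lev (A : GL (Fin 3) (ZMod 3)) :
    ((lev A : GL J (ZMod 3)) : Matrix J J (ZMod 3)).det = 1 := by
  have hfst : ∀ g : O7, (chi g).1 = 1 ↔ ((g : GL J (ZMod 3)) : Matrix J J (ZMod 3)).det = 1 := by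
    intro g
    rw [det_eq_neg_one_pow hQ hexc g.2, chi, classHom_fst]
    constructor
    · exact fun h => h.neg_one_pow
    · intro h
      by_contra hodd
      rw [(Nat.not_even_iff_odd.1 hodd).neg_one_pow] at h
      revert h; decide
  rw [← hfst]
  by_cases h : A.val.det = 1
  · show (psi A).1 = 1
    rw [(psi_eq A).1 h]; rfl
  · show (psi A).1 = 1
    rw [(psi_eq A).2 h, hfst]
    exact hO_facts.2

theorem lev_mem (A : GL (Fin 3) (ZMod 3)) (h : A.val.det = 1) : chi (lev A) = 1 := (psi_eq A).1 h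

/-- The level of a coordinate. -/
def lvl (i : Fin 7) : ℕ := if i < 3 then 0 else if i = 3 then 1 else 2

theorem pow_apply_eq_zero {N : M7} (hN : ∀ i j, lvl j ≤ lvl i → N i j = 0) :
    ∀ (k : ℕ) (i j : Fin 7), lvl j < lvl i + k → (N ^ k) i j = 0 := by
  intro k
  induction k with
  | zero =>
    intro i j h
    rw [pow_zero, Matrix.one_apply_ne]
    rintro rfl
    omega
  | succ k ih =>
    intro i j h
    rw [pow_succ, Matrix.mul_apply]
    refine Finset.sum_eq_zero fun l _ => ?_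
    by_cases hl : lvl l < lvl i + k
    · rw [ih i l hl, zero_mul]
    · rw [hN l j (by omega), mul_zero]

theorem dMat_mul_apply (M : M7) (j : Fin 7) :
    (dMat * M) 0 j = M 3 j + 2 * M 4 j ∧ (dMat * M) 1 j = M 6 j ∧ (dMat * M) 2 j = 2 * M 5 j ∧
      (dMat * M) 3 j = M 4 j ∧ (dMat * M) 4 j = 0 ∧ (dMat * M) 5 j = 0 ∧ (dMat * M) 6 j = 0 := by
  refine ⟨?_, ?_, ?_, ?_, ?_, ?_, ?_⟩ <;>
    simp [Matrix.mul_apply, Fin.sum_univ_seven, dMat_apply]

theorem mul_dMat_apply (M : M7) (i : Fin 7) :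
    (M * dMat) i 0 = 0 ∧ (M * dMat) i 1 = 0 ∧ (M * dMat) i 2 = 0 ∧ (M * dMat) i 3 = M i 0 ∧
      (M * dMat) i 4 = 2 * M i 0 + M i 3 ∧ (M * dMat) i 5 = 2 * M i 2 ∧ (M * dMat) i 6 = M i 1 := by
  refine ⟨?_, ?_, ?_, ?_, ?_, ?_, ?_⟩ <;>
    simp [Matrix.mul_apply, Fin.sum_univ_seven, dMat_apply, mul_comm]

/-- A determinant one isometry commuting with the first representative lies in `Omega`. -/
theorem chi_eq_one_of_commute (g : O7)
    (hdet : ((g : GL J (ZMod 3)) : Matrix J J (ZMod 3)).det = 1)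
    (hc : toM (g : GL J (ZMod 3)) * wordM 972 = wordM 972 * toM (g : GL J (ZMod 3))) :
    chi g = 1 := by
  set M := toM (g : GL J (ZMod 3)) with hM
  have hcd : M * dMat = dMat * M := by
    rw [wordM_972, mul_add, add_mul, mul_one, one_mul] at hc
    exact add_left_cancel hc
  have hd : ∀ i j, (M * dMat) i j = (dMat * M) i j := fun i j => by rw [hcd]
  have h2 : (2 : ZMod 3) ≠ 0 := by decide
  have hthree : (3 : ZMod 3) = 0 := by decide
  obtain ⟨R0, R1, R2, R3, R4, R5, R6⟩ :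
      (∀ j, (M * dMat) 0 j = M 3 j + 2 * M 4 j) ∧ (∀ j, (M * dMat) 1 j = M 6 j) ∧
      (∀ j, (M * dMat) 2 j = 2 * M 5 j) ∧ (∀ j, (M * dMat) 3 j = M 4 j) ∧
      (∀ j, (M * dMat) 4 j = 0) ∧ (∀ j, (M * dMat) 5 j = 0) ∧ (∀ j, (M * dMat) 6 j = 0) := by
    refine ⟨?_, ?_, ?_, ?_, ?_, ?_, ?_⟩ <;> intro j <;> rw [hd]
    exacts [(dMat_mul_apply M j).1, (dMat_mul_apply M j).2.1, (dMat_mul_apply M j).2.2.1,
      (dMat_mul_apply M j).2.2.2.1, (dMat_mul_apply M j).2.2.2.2.1, (dMat_mul_apply M j).2.2.2.2.2.1,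
      (dMat_mul_apply M j).2.2.2.2.2.2]
  obtain ⟨C0, C1, C2, C3, C4, C5, C6⟩ :
      (∀ i, (M * dMat) i 0 = 0) ∧ (∀ i, (M * dMat) i 1 = 0) ∧ (∀ i, (M * dMat) i 2 = 0) ∧
      (∀ i, (M * dMat) i 3 = M i 0) ∧ (∀ i, (M * dMat) i 4 = 2 * M i 0 + M i 3) ∧
      (∀ i, (M * dMat) i 5 = 2 * M i 2) ∧ (∀ i, (M * dMat) i 6 = M i 1) :=
    ⟨fun i => (mul_dMat_apply M i).1, fun i => (mul_dMat_apply M i).2.1,
      fun i => (mul_dMat_apply M i).2.2.1, fun i => (mul_dMat_apply M i).2.2.2.1,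
      fun i => (mul_dMat_apply M i).2.2.2.2.1, fun i => (mul_dMat_apply M i).2.2.2.2.2.1,
      fun i => (mul_dMat_apply M i).2.2.2.2.2.2⟩
  have zu : ∀ b, M 3 (iu b) = 0 ∧ ∀ a, M (iw a) (iu b) = 0 := by
    intro b
    have hz : (M * dMat) 0 (iu b) = 0 ∧ (M * dMat) 1 (iu b) = 0 ∧ (M * dMat) 2 (iu b) = 0 ∧
        (M * dMat) 3 (iu b) = 0 := by
      fin_cases b
      exacts [⟨C0 0, C0 1, C0 2, C0 3⟩, ⟨C1 0, C1 1, C1 2, C1 3⟩, ⟨C2 0, C2 1, C2 2, C2 3⟩]
    rw [R0, R1, R2, R3] at hz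
    obtain ⟨h0, h6, h5, h4⟩ := hz
    rw [h4, mul_zero, add_zero] at h0
    refine ⟨h0, fun a => ?_⟩
    fin_cases a
    exacts [h4, (mul_eq_zero.1 h5).resolve_left h2, h6]
  have z43 : M 4 3 = 0 := by
    have h := (C4 4).symm.trans (R4 4)
    rwa [show M 4 0 = 0 from (zu 0).2 0, mul_zero, zero_add] at h
  have z53 : M 5 3 = 0 := by
    have h := (C4 5).symm.trans (R5 4)
    rwa [show M 5 0 = 0 from (zu 0).2 1, mul_zero, zero_add] at h
  have z63 : M 6 3 = 0 := by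
    have h := (C4 6).symm.trans (R6 4)
    rwa [show M 6 0 = 0 from (zu 0).2 2, mul_zero, zero_add] at h
  have zw : ∀ a, M (iw a) 3 = 0 := fun a => by fin_cases a; exacts [z43, z53, z63]
  have a00 : M 0 0 = M 3 3 := by rw [← C3 0, R0, z43, mul_zero, add_zero]
  have a10 : M 1 0 = 0 := by rw [← C3 1, R1, z63]
  have a20 : M 2 0 = 0 := by rw [← C3 2, R2, z53, mul_zero]
  have d45 : M 4 5 = 0 := by rw [← R3 5, C5 3, show M 3 2 = 0 from (zu 2).1, mul_zero]
  have d55 : M 5 5 = M 2 2 := mul_left_cancel₀ h2 ((R2 5).symm.trans (C5 2))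
  have d65 : M 6 5 = 2 * M 1 2 := (R1 5).symm.trans (C5 1)
  obtain ⟨g1, g2, g3, g4, g5, g6, g7, g8, g9⟩ := gram_entries
  have horth := (mem_O7_iff _).1 g.2
  rw [← hM] at horth
  set A0 : Matrix (Fin 3) (Fin 3) (ZMod 3) := Matrix.of fun a b => M (iu a) (iu b) with hA0
  set B0 : Matrix (Fin 3) (Fin 3) (ZMod 3) := Matrix.of fun a b => M (iw b) (iw a) with hB0
  have hBA : B0 * A0 = 1 := by
    ext a b
    have h := congrFun (congrFun horth (iu b)) (iw a)
    rw [gram_form, g1] at h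
    simp [(zu b).1, (zu b).2] at h
    rw [Matrix.mul_apply, Matrix.one_apply]
    show ∑ k, M (iw k) (iw a) * M (iu k) (iu b) = _
    rw [Finset.sum_congr rfl fun k _ => mul_comm (M (iw k) (iw a)) (M (iu k) (iu b))]
    refine mul_left_cancel₀ h2 (h.trans ?_)
    by_cases hab : a = b
    · subst hab; simp
    · simp [hab, Ne.symm hab]
  have hAB : A0 * B0 = 1 := mul_eq_one_comm.1 hBA
  let A : GL (Fin 3) (ZMod 3) := ⟨A0, B0, hAB, hBA⟩
  have hdetA : A0.det = M 3 3 := by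
    have h11 := congrFun (congrFun hBA 1) 1
    simp only [Matrix.mul_apply, Fin.sum_univ_three, hA0, hB0, Matrix.of_apply, Matrix.one_apply_eq] at h11
    have e : M 4 5 * M 0 1 + M 5 5 * M 1 1 + M 6 5 * M 2 1 = 1 := h11
    rw [d45, d55, d65] at e
    rw [Matrix.det_fin_three]
    show M 0 0 * M 1 1 * M 2 2 - M 0 0 * M 1 2 * M 2 1 - M 0 1 * M 1 0 * M 2 2 +
      M 0 1 * M 1 2 * M 2 0 + M 0 2 * M 1 0 * M 2 1 - M 0 2 * M 1 1 * M 2 0 = M 3 3
    rw [a00, a10, a20]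
    linear_combination M 3 3 * e - M 3 3 * M 1 2 * M 2 1 * hthree
  set g' := g * (lev A)⁻¹ with hg'
  set P := toM (g' : GL J (ZMod 3)) with hP
  have hPe : P = M * levM B0 A0 := by
    rw [hP, hg', Subgroup.coe_mul, map_mul, ← map_inv, toM_lev]; rfl
  obtain ⟨l1, l2, l3, l4, l5, l6, l7, l8, l9⟩ := levM_entries B0 A0
  have hPu : ∀ i b, P i (iu b) = ∑ k, M i (iu k) * B0 k b := fun i b => by
    rw [hPe, Matrix.mul_apply, sum_coord]
    simp [l1, l4, l7]
  have hP3 : ∀ i, P i 3 = M i 3 := fun i => by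
    rw [hPe, Matrix.mul_apply, sum_coord]
    simp [l2, l5, l8]
  have hPw : ∀ i b, P i (iw b) = ∑ k, M i (iw k) * A0 b k := fun i b => by
    rw [hPe, Matrix.mul_apply, sum_coord]
    simp [l3, l6, l9]
  have hone : ∀ a b, ∑ k, M (iu a) (iu k) * B0 k b = (1 : Matrix (Fin 3) (Fin 3) (ZMod 3)) a b :=
    fun a b => by rw [← hAB, Matrix.mul_apply]; rfl
  have hone' : ∀ a b, ∑ k, M (iw a) (iw k) * A0 b k = (1 : Matrix (Fin 3) (Fin 3) (ZMod 3)) b a :=
    fun a b => by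
      rw [← hAB, Matrix.mul_apply]
      exact Finset.sum_congr rfl fun k _ => by rw [mul_comm]; rfl
  have htri : ∀ i j, lvl j ≤ lvl i → P i j = if i = j then (if i = 3 then M 3 3 else 1) else 0 := by
    have L1 : ∀ a, lvl (iu a) = 0 := by decide
    have L2 : ∀ a, lvl (iw a) = 2 := by decide
    have L3 : lvl 3 = 1 := rfl
    have n1 : ∀ a, iu a ≠ 3 := by decide
    have n2 : ∀ a, iw a ≠ 3 := by decide
    have n3 : ∀ a b, iu a ≠ iw b := by decide
    have n4 : ∀ a b, iu a = iu b ↔ a = b := by decide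
    have n5 : ∀ a b, iw a = iw b ↔ a = b := by decide
    intro i j hij
    rcases coord_cases i with ⟨a, rfl⟩ | rfl | ⟨a, rfl⟩ <;>
      rcases coord_cases j with ⟨b, rfl⟩ | rfl | ⟨b, rfl⟩ <;>
      simp only [L1, L2, L3] at hij <;> (try omega)
    · rw [hPu, hone, if_neg (n1 a)]; simp [Matrix.one_apply, n4]
    · rw [hPu, if_neg (n1 b).symm]; simp [(fun k => (zu k).1)]
    · rw [hP3, if_pos rfl, if_pos rfl]
    · rw [hPu, if_neg (n3 b a).symm]; simp [fun k => (zu k).2 a]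
    · rw [hP3, zw, if_neg (n2 a)]
    · rw [hPw, hone', if_neg (n2 a)]; simp [Matrix.one_apply, n5, eq_comm]
  have hPdet : P.det = 1 := by
    rw [hP, det_toM, hg', Subgroup.coe_mul, Units.val_mul, Matrix.det_mul, hdet, one_mul,
      ← map_inv]
    exact det_lev A⁻¹
  have hle : ∀ i j : Fin 7, j < i → lvl j ≤ lvl i := by decide
  have hPdet' : P.det = M 3 3 := by
    rw [Matrix.det_of_upperTriangular (fun i j hij =>
      (htri i j (hle i j hij)).trans (if_neg (ne_of_gt hij)))]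
    rw [Finset.prod_eq_single (3 : Fin 7) (fun i _ hi => by rw [htri i i le_rfl, if_pos rfl, if_neg hi])
      (fun h => absurd (Finset.mem_univ _) h), hP3]
  have he : M 3 3 = 1 := by rw [← hPdet', hPdet]
  have hAdet : A.val.det = 1 := by rw [← he]; exact hdetA
  have hN : ∀ i j, lvl j ≤ lvl i → (P - 1) i j = 0 := fun i j hij => by
    rw [Matrix.sub_apply, htri i j hij, Matrix.one_apply, he, ite_self]
    split_ifs <;> simp
  have hN3 : (P - 1) ^ 3 = 0 := by
    ext i j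
    rw [pow_apply_eq_zero hN 3 i j (by unfold lvl; split_ifs <;> omega)]
    rfl
  have hP9 : P ^ 9 = 1 := by
    have h : P ^ 3 ^ 2 - (1 : M7) ^ 3 ^ 2 = (P - 1) ^ 3 ^ 2 :=
      (sub_pow_char_pow_of_commute 3 2 (Commute.one_right P)).symm
    rw [one_pow, show (3 : ℕ) ^ 2 = 3 * 3 from rfl, pow_mul (P - 1), hN3,
      zero_pow (by norm_num : (3 : ℕ) ≠ 0), sub_eq_zero] at h
    exact h
  have hg9 : g' ^ 9 = 1 := Subtype.ext (toM_injective (by
    rw [SubgroupClass.coe_pow, map_pow, OneMemClass.coe_one, map_one, ← hP, hP9]))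
  have h1 := chi_of_odd_pow (k := 9) ⟨4, rfl⟩ hg9
  rwa [hg', map_mul, map_inv, lev_mem A hAdet, inv_one, mul_one] at h1

end CfsgLib.Spec53.O73
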