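import Cfsg.Agent.Spec53.O73.Group

/-!
The certified Sylow three-subgroup of `Omega7(3)`.
-/

set_option autoImplicit false

namespace CfsgLib.Spec53.O73

open Matrix CfsgLib.Classical.Orth

/-- The root element of index `k`, with default the identity. -/
def rG (k : ℕ) : Om := if h : k < 9 then rOm ⟨k, h⟩ else 1

theorem omToM_rG (k : ℕ) : omToM (rG k) = dec (rM k) := by
  unfold rG
  split_ifs with h
  · exact omToM_rOm ⟨k, h⟩
  · rw [map_one, rM, List.getD_eq_default _ _ (by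
      have : rootM.length = 9 := rfl
      omega), dec_oneP]

theorem rG_cube (k : ℕ) : rG k ^ 3 = 1 := by
  unfold rG
  split_ifs with h
  · exact Subtype.ext (rO_cube ⟨k, h⟩)
  · rw [one_pow]

/-- The word in the group. -/
def wG (i : ℕ) : ℕ → ℕ → Om
  | 0, _ => 1
  | len + 1, c => rG i ^ (c % 3) * wG (i + 1) len (c / 3)

theorem omToM_wG (i len c : ℕ) : omToM (wG i len c) = dec (wordP i len c) := by
  induction len generalizing i c with
  | zero => rw [wG, map_one, wordP, dec_oneP]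
  | succ len ih =>
    have hr := tables_spec.1 i
    simp only [wG, wordP, map_mul, map_pow, omToM_rG, ih]
    rcases (show c % 3 = 0 ∨ c % 3 = 1 ∨ c % 3 = 2 by omega) with h | h | h <;> rw [h]
    · simp
    · simp [dec_mulP hr (okMat_wordP _ _ _)]
    · simp [dec_mulP hr (okMat_mulP hr), dec_mulP hr (okMat_wordP _ _ _), pow_two, mul_assoc]

theorem wG_add (i a b c : ℕ) :
    wG i (a + b) c = wG i a (c % 3 ^ a) * wG (i + a) b (c / 3 ^ a) := by
  induction a generalizing i c with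
  | zero => simp [wG]
  | succ a ih =>
    rw [show a + 1 + b = (a + b) + 1 by omega, wG, wG, ih, mul_assoc]
    have e1 : c % 3 ^ (a + 1) % 3 = c % 3 := by
      rw [Nat.mod_mod_of_dvd _ (dvd_pow_self 3 (by omega))]
    have e2 : c % 3 ^ (a + 1) / 3 = c / 3 % 3 ^ a := by
      rw [pow_succ', Nat.mod_mul_right_div_self]
    have e3 : c / 3 / 3 ^ a = c / 3 ^ (a + 1) := by
      rw [Nat.div_div_eq_div_mul, pow_succ']
    rw [e1, e2, e3, show i + 1 + a = i + (a + 1) by omega]

theorem wG_zero (i len : ℕ) : wG i len 0 = 1 := by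
  induction len generalizing i with
  | zero => rfl
  | succ len ih => simp [wG, ih]

/-- The element of index `c`. -/
def wordG (c : ℕ) : Om := wG 0 9 c

theorem omToM_wordG {c : ℕ} (hc : c < 19683) : omToM (wordG c) = wordM c := by
  rw [wordG, show (9 : ℕ) = 4 + 5 from rfl, wG_add, map_mul, omToM_wG, omToM_wG, wordM, loP_eq,
    hiP_eq hc]
  norm_num

theorem wordG_eq {k c : ℕ} (hk : k ≤ 9) (hc : c % 3 ^ k = 0) :
    wordG c = wG k (9 - k) (c / 3 ^ k) := by
  rw [wordG]
  conv_lhs => rw [show 9 = k + (9 - k) by omega]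
  rw [wG_add, hc, wG_zero, one_mul, zero_add]

/-- The subgroup of the root elements from `k` on. -/
def K (k : ℕ) : Subgroup Om := Subgroup.closure (rG '' {j | k ≤ j ∧ j < 9})

theorem rG_mem_K {j k : ℕ} (h : k ≤ j) (h' : j < 9) : rG j ∈ K k :=
  Subgroup.subset_closure ⟨j, ⟨h, h'⟩, rfl⟩

theorem wG_mem_K {k i len : ℕ} (hi : k ≤ i) (hl : i + len ≤ 9) (c : ℕ) : wG i len c ∈ K k := by
  induction len generalizing i c with
  | zero => exact one_mem _
  | succ len ih =>
    exact mul_mem (pow_mem (rG_mem_K hi (by omega)) _) (ih (by omega) (by omega) _)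

theorem K_mono {k : ℕ} : K (k + 1) ≤ K k :=
  Subgroup.closure_mono (Set.image_mono fun _ hj => ⟨Nat.le_of_succ_le hj.1, hj.2⟩)

theorem comm_spec {k j : ℕ} (hkj : k < j) (hj : j < 9) :
    ∃ c, c < 19683 ∧ c % 3 ^ (k + 1) = 0 ∧ rG k * rG j = wordG c * rG k := by
  have h := List.all_eq_true.1 comm_ok
  have hmem : ∀ a : Fin 9, ∀ b : Fin 9, a < b → ∃ t : Fin 36,
      (((List.range 9).flatMap fun k => (List.range (8 - k)).map fun d => (k, k + 1 + d)).zipIdx)[(t : ℕ)]? =
        some (((a : ℕ), (b : ℕ)), (t : ℕ)) := by decide +kernel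
  obtain ⟨t, ht⟩ := hmem ⟨k, by omega⟩ ⟨j, hj⟩ hkj
  have h1 := h _ (List.mem_of_getElem? ht)
  simp only [checkCommPair, Bool.and_eq_true, decide_eq_true_eq] at h1
  obtain ⟨⟨hc, hc0⟩, he⟩ := h1
  refine ⟨commTab.getD t 1, hc, hc0, omToM_injective ?_⟩
  rw [map_mul, map_mul, omToM_rG, omToM_rG, omToM_wordG hc, wordM,
    ← dec_mulP (okMat_loP _) (okMat_hiP hc)]
  exact eqProd_spec (tables_spec.1 k) (tables_spec.1 j) (okMat_mulP (okMat_loP _))
    (tables_spec.1 k) he

theorem conj_mem_K {k : ℕ} {s : Om} (hs : s ∈ K (k + 1)) :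
    rG k * s * (rG k)⁻¹ ∈ K (k + 1) := by
  have h : (K (k + 1)).map (MulAut.conj (rG k)).toMonoidHom ≤ K (k + 1) := by
    rw [K, MonoidHom.map_closure, Subgroup.closure_le]
    rintro _ ⟨_, ⟨j, ⟨h1, h2⟩, rfl⟩, rfl⟩
    obtain ⟨c, -, hc0, he⟩ := comm_spec (Nat.lt_of_succ_le h1) h2
    show rG k * rG j * (rG k)⁻¹ ∈ K (k + 1)
    rw [he, mul_inv_cancel_right, wordG_eq (by omega) hc0]
    exact wG_mem_K le_rfl (by omega) _
  exact h (Subgroup.mem_map_of_mem _ hs)

theorem conj_pow_mem_K {k : ℕ} {s : Om} (hs : s ∈ K (k + 1)) (e : ℕ) :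
    rG k ^ e * s * (rG k ^ e)⁻¹ ∈ K (k + 1) := by
  induction e with
  | zero => simpa using hs
  | succ e ih =>
    have h := conj_mem_K ih
    rw [pow_succ', _root_.mul_inv_rev]
    convert h using 1
    group

theorem mem_K_iff {k : ℕ} (hk : k < 9) (g : Om) :
    g ∈ K k ↔ ∃ e, e < 3 ∧ ∃ s ∈ K (k + 1), g = rG k ^ e * s := by
  have hred : ∀ e, rG k ^ e = rG k ^ (e % 3) := fun e => by
    conv_lhs => rw [← Nat.mod_add_div e 3, pow_add, pow_mul, rG_cube, one_pow, mul_one]
  constructor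
  · intro hg
    induction hg using Subgroup.closure_induction with
    | mem x hx =>
      obtain ⟨j, ⟨h1, h2⟩, rfl⟩ := hx
      rcases h1.eq_or_lt with rfl | hlt
      · exact ⟨1, by omega, 1, one_mem _, by simp⟩
      · exact ⟨0, by omega, rG j, rG_mem_K hlt h2, by simp⟩
    | one => exact ⟨0, by omega, 1, one_mem _, by simp⟩
    | mul x y _ _ hx hy =>
      obtain ⟨e, -, s, hs, rfl⟩ := hx
      obtain ⟨f, -, t, ht, rfl⟩ := hy
      have h1 := conj_pow_mem_K hs (2 * f)
      have hinv : (rG k ^ (2 * f))⁻¹ = rG k ^ f := by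
        refine inv_eq_of_mul_eq_one_right ?_
        rw [← pow_add, show 2 * f + f = 3 * f by ring, pow_mul, rG_cube, one_pow]
      rw [hinv] at h1
      refine ⟨(e + f) % 3, Nat.mod_lt _ (by omega), _, mul_mem h1 ht, ?_⟩
      rw [← hred, pow_add, show rG k ^ (2 * f) = (rG k ^ f)⁻¹ by rw [← hinv, inv_inv]]
      simp only [mul_assoc, mul_inv_cancel_left]
    | inv x _ hx =>
      obtain ⟨e, -, s, hs, rfl⟩ := hx
      refine ⟨(2 * e) % 3, Nat.mod_lt _ (by omega), _, conj_pow_mem_K (inv_mem hs) e, ?_⟩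
      rw [← hred, _root_.mul_inv_rev,
        show rG k ^ (2 * e) = (rG k ^ e)⁻¹ from eq_inv_of_mul_eq_one_left (by
          rw [← pow_add, show 2 * e + e = 3 * e by ring, pow_mul, rG_cube, one_pow])]
      simp only [mul_assoc, inv_mul_cancel_left]
  · rintro ⟨e, -, s, hs, rfl⟩
    exact mul_mem (pow_mem (rG_mem_K le_rfl hk) _) (K_mono hs)

theorem exists_word_of_mem_K : ∀ d k : ℕ, k + d = 9 → ∀ g ∈ K k,
    ∃ c, c < 3 ^ d ∧ g = wG k d c := by
  intro d
  induction d with
  | zero =>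
    intro k hk g hg
    have hset : rG '' {j | k ≤ j ∧ j < 9} = ∅ := by
      ext x
      simp only [Set.mem_image, Set.mem_setOf_eq, Set.mem_empty_iff_false, iff_false, not_exists]
      rintro j ⟨⟨h1, h2⟩, -⟩
      omega
    rw [K, hset, Subgroup.closure_empty, Subgroup.mem_bot] at hg
    exact ⟨0, by simp, by rw [hg]; rfl⟩
  | succ d ih =>
    intro k hk g hg
    obtain ⟨e, he, s, hs, rfl⟩ := (mem_K_iff (by omega) g).1 hg
    obtain ⟨c, hc, rfl⟩ := ih (k + 1) (by omega) s hs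
    refine ⟨e + 3 * c, by rw [pow_succ]; omega, ?_⟩
    rw [wG, Nat.add_mul_mod_self_left, Nat.mod_eq_of_lt he, Nat.add_mul_div_left _ _ (by omega),
      Nat.div_eq_of_lt he, zero_add]

theorem rG_notMem {k : ℕ} (hk : k < 9) : rG k ∉ K (k + 1) := by
  intro hmem
  obtain ⟨d, hd, he⟩ := exists_word_of_mem_K (8 - k) (k + 1) (by omega) _ hmem
  have h := sep_ok hk
  simp only [checkSep, Bool.and_eq_true, decide_eq_true_eq, List.all_eq_true, List.mem_range] at h
  obtain ⟨⟨⟨hp1, hp2⟩, hne⟩, hall⟩ := h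
  set c := d * 3 ^ (k + 1)
  have hc : c < 19683 := by
    calc d * 3 ^ (k + 1) < 3 ^ (8 - k) * 3 ^ (k + 1) :=
          Nat.mul_lt_mul_of_pos_right hd (pow_pos (by omega) _)
      _ = 19683 := by rw [← pow_add, show 8 - k + (k + 1) = 9 by omega]; norm_num
  have hw : wordG c = rG k := by
    rw [wordG_eq (by omega) (Nat.mul_mod_left _ _), Nat.mul_div_cancel _ (pow_pos (by omega) _),
      show 9 - (k + 1) = 8 - k by omega, ← he]
  have hM : dec (mulRaw (loP c) (hiP c)) = dec (rM k) := by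
    rw [dec_mulRaw (okMat_loP c) (okMat_hiP hc), ← omToM_rG, ← hw, omToM_wordG hc, wordM]
  have h0 := hall d hd
  rw [← mulRaw_getD _ _ (okMat_length (okMat_loP c)) hp1] at h0
  have h1 : ((lane ((mulRaw (loP c) (hiP c)).getD (sepPos.getD k (7, 7)).1 0)
      (sepPos.getD k (7, 7)).2 : ℕ) : ZMod 3) =
      ((lane ((rM k).getD (sepPos.getD k (7, 7)).1 0) (sepPos.getD k (7, 7)).2 : ℕ) : ZMod 3) :=
    congrFun (congrFun hM ⟨_, hp1⟩) ⟨_, hp2⟩
  rw [ZMod.natCast_eq_natCast_iff'] at h1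
  have h0' : lane ((mulRaw (loP c) (hiP c)).getD (sepPos.getD k (7, 7)).1 0)
      (sepPos.getD k (7, 7)).2 % 3 = 0 := h0
  omega

theorem card_K : ∀ d k : ℕ, k + d = 9 → Nat.card (K k) = 3 ^ d := by
  intro d
  induction d with
  | zero =>
    intro k hk
    rw [pow_zero, Subgroup.card_eq_one, K, Subgroup.closure_eq_bot_iff]
    rintro x ⟨j, ⟨h1, h2⟩, rfl⟩
    omega
  | succ d ih =>
    intro k hk
    rw [pow_succ, ← ih (k + 1) (by omega), mul_comm,
      show 3 * Nat.card (K (k + 1)) = Nat.card (Fin 3 × K (k + 1)) by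
        rw [Nat.card_prod, Nat.card_fin]]
    refine (Nat.card_eq_of_bijective (fun x : Fin 3 × K (k + 1) =>
      (⟨rG k ^ (x.1 : ℕ) * x.2, (mem_K_iff (by omega) _).2 ⟨x.1, x.1.2, x.2, x.2.2, rfl⟩⟩ : K k))
      ⟨?_, ?_⟩).symm
    · rintro ⟨e, s⟩ ⟨f, t⟩ h
      have h' : rG k ^ (e : ℕ) * (s : Om) = rG k ^ (f : ℕ) * (t : Om) := congrArg Subtype.val h
      have hmem : rG k ^ ((e : ℕ) + 2 * f) ∈ K (k + 1) := by
        have h2 : rG k ^ (2 * (f : ℕ)) * rG k ^ (e : ℕ) = (t : Om) * (s : Om)⁻¹ := by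
          rw [eq_mul_inv_iff_mul_eq, mul_assoc, h', ← mul_assoc, ← pow_add,
            show 2 * (f : ℕ) + f = 3 * f by ring, pow_mul, rG_cube, one_pow, one_mul]
        rw [add_comm (e : ℕ), pow_add, h2]
        exact mul_mem t.2 (inv_mem s.2)
      have hef : e = f := by
        by_contra hne
        have hmod : ((e : ℕ) + 2 * f) % 3 = 1 ∨ ((e : ℕ) + 2 * f) % 3 = 2 := by
          have := Fin.val_ne_of_ne hne
          omega
        rw [← Nat.mod_add_div ((e : ℕ) + 2 * f) 3, pow_add, pow_mul, rG_cube, one_pow,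
          mul_one] at hmem
        rcases hmod with hm | hm <;> rw [hm] at hmem
        · exact rG_notMem (k := k) (by omega) (by simpa using hmem)
        · refine rG_notMem (k := k) (by omega) ?_
          have h2 := inv_mem hmem
          rwa [show (rG k ^ 2)⁻¹ = rG k from inv_eq_of_mul_eq_one_right (by
            rw [← pow_succ, rG_cube])] at h2
      subst hef
      exact Prod.ext rfl (Subtype.ext (mul_left_cancel h'))
    · rintro ⟨g, hg⟩
      obtain ⟨e, he, s, hs, rfl⟩ := (mem_K_iff (by omega) g).1 hg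
      exact ⟨(⟨e, he⟩, ⟨s, hs⟩), rfl⟩

theorem card_Om : Nat.card Om = 4585351680 := by
  have hn : 5 ≤ Fintype.card J := by simp
  have hno : ¬ ∃ g : O7, g ∈ Om ∧ ((g : GL J (ZMod 3)) : Matrix J J (ZMod 3)) = -1 := by
    rintro ⟨g, hg, hv⟩
    have hd := det_of_mem_Om hg
    rw [hv, Matrix.det_neg, Matrix.det_one, mul_one] at hd
    revert hd
    simp [J]
    decide
  have hc := (card_center_omega hQ hn).1 (Or.inl hno)
  have h := Subgroup.card_mul_index Om
  rw [index_omega_odd hQ (by decide) (by simp), card_isometryGroup_odd (by decide)] at h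
  simp only [evenProd, ZMod.card, Finset.prod_range_succ, Finset.prod_range_zero] at h
  omega

theorem center_Om : Subgroup.center Om = ⊥ := by
  have hn : 5 ≤ Fintype.card J := by simp
  have hno : ¬ ∃ g : O7, g ∈ Om ∧ ((g : GL J (ZMod 3)) : Matrix J J (ZMod 3)) = -1 := by
    rintro ⟨g, hg, hv⟩
    have hd := det_of_mem_Om hg
    rw [hv, Matrix.det_neg, Matrix.det_one, mul_one] at hd
    revert hd
    simp [J]
    decide
  exact Subgroup.card_eq_one.1 ((card_center_omega hQ hn).1 (Or.inl hno))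

/-- The Sylow three-subgroup. -/
noncomputable def sylU : Sylow 3 Om :=
  haveI : Fact (Nat.Prime 3) := ⟨Nat.prime_three⟩
  Sylow.ofCard (K 0) (by
    rw [card_K 9 0 rfl, card_Om]
    congr 1
    rw [show (4585351680 : ℕ) = 3 ^ 9 * 232960 by norm_num,
      Nat.factorization_mul (by norm_num) (by norm_num), Finsupp.add_apply,
      Nat.Prime.factorization_pow Nat.prime_three, Finsupp.single_eq_same,
      Nat.factorization_eq_zero_of_not_dvd (by norm_num), add_zero])

theorem exists_index_of_mem_U {g : Om} (hg : g ∈ K 0) :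
    ∃ c, c < 19683 ∧ g = wordG c := by
  obtain ⟨c, hc, he⟩ := exists_word_of_mem_K 9 0 rfl g hg
  exact ⟨c, by simpa using hc, he⟩

end CfsgLib.Spec53.O73
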